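/-
A search under the stabiliser of a minimal vector.
-/
import Cfsg.Agent.Lib.LeechP.C2Sys

set_option autoImplicit false
set_option maxRecDepth 100000

namespace Cfsg.Agent.Lib.LeechP

open Cfsg Cfsg.Agent.Lib.Golay Cfsg.Agent.Lib.Golay.Leech

def c2Sc : ℕ := 7214869600432417959145095598227732935714853192103691800334586482290432749523281371725296435284860512593750523924
noncomputable def c2Tc : BT := orbitT (actMv c2Nf) c2Gm 16 (saltN c2Sc)

theorem c2_scanc : cntMin (scanF (tD c2Ra c2Fa 0 0) c2Tc c2Nf) = 0 := by decide +kernel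

end Cfsg.Agent.Lib.LeechP
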