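/-
Transitivity of the stabiliser of a minimal vector on minimal vectors with a given inner product.
-/
import Cfsg.Agent.Lib.LeechP.C2a
import Cfsg.Agent.Lib.LeechP.C2b
import Cfsg.Agent.Lib.LeechP.C2c
import Cfsg.Agent.Lib.LeechX.Gl23

set_option autoImplicit false

namespace Cfsg.Agent.Lib.LeechP

open Cfsg Cfsg.Agent.Lib.Golay Cfsg.Agent.Lib.Golay.Leech Cfsg.Agent.Lib.LeechX Cfsg.Agent.Lib.M24

/-- The action preserves inner products. -/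
theorem dot_smul (g : ↥Co0) (x y : ↥leechLattice) : dotInt (g • x).1 (g • y).1 = dotInt x.1 y.1 := g_dot g x y

theorem norm_smul (g : ↥Co0) (x : ↥leechLattice) : sqNorm (g • x).1 = sqNorm x.1 := g_norm g x

/-- From the base vector to all vectors. -/
theorem pair_trans_of_base {v0 w0 : ↥leechLattice} (hv0 : sqNorm v0.1 = 32) {d : ℤ}
    (hb : ∀ x : ↥leechLattice, sqNorm x.1 = 32 → dotInt v0.1 x.1 = d → ∃ g : ↥Co0, g • v0 = v0 ∧ g • w0 = x)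
    (v w w' : ↥leechLattice) (hv : sqNorm v.1 = 32) (hw : sqNorm w.1 = 32) (hw' : sqNorm w'.1 = 32)
    (hd : dotInt v.1 w.1 = d) (hd' : dotInt v.1 w'.1 = d) : ∃ g : ↥Co0, g • v = v ∧ g • w = w' := by
  obtain ⟨a, ha⟩ := min_trans v v0 hv hv0
  obtain ⟨g1, h1, h2⟩ := hb (a • w) (by rw [norm_smul]; exact hw) (by rw [← ha, dot_smul]; exact hd)
  obtain ⟨g2, h3, h4⟩ := hb (a • w') (by rw [norm_smul]; exact hw') (by rw [← ha, dot_smul]; exact hd')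
  refine ⟨a⁻¹ * g2 * g1⁻¹ * a, ?_, ?_⟩
  · simp only [mul_smul]
    rw [ha]
    have e : g1⁻¹ • v0 = v0 := by
      rw [inv_smul_eq_iff, h1]
    rw [e, h3, ← ha, inv_smul_smul]
  · simp only [mul_smul]
    have e : g1⁻¹ • a • w = w0 := by
      rw [inv_smul_eq_iff, h2]
    rw [e, h4, inv_smul_smul]

/-- Elements of a fixer fix the vectors of the list. -/
theorem fx_fix {L : List ℕ} {g : ↥Co0} (hg : g ∈ Fx L) {m : ℕ} (hm : m ∈ L) (hd : dec m ∈ leechLattice) :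
    g • (⟨dec m, hd⟩ : ↥leechLattice) = ⟨dec m, hd⟩ := hg m hm hd

theorem c2Sa_lat : Val c2Sa ∧ dec c2Sa ∈ leechLattice := lat_of_latOK (by decide +kernel)
theorem c2Sb_lat : Val c2Sb ∧ dec c2Sb ∈ leechLattice := lat_of_latOK (by decide +kernel)
theorem c2Sc_lat : Val c2Sc ∧ dec c2Sc ∈ leechLattice := lat_of_latOK (by decide +kernel)

theorem c2a_base (x : ↥leechLattice) (hn : sqNorm x.1 = 32) (hd : dotInt v0L.1 x.1 = -16) :
    ∃ g : ↥Co0, g • v0L = v0L ∧ g • (⟨dec c2Sa, c2Sa_lat.2⟩ : ↥leechLattice) = x := by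
  obtain ⟨g, hg, he⟩ := orbit_of_scan (x0 := ⟨dec c2Sa, c2Sa_lat.2⟩) c2_sys (by decide +kernel) c2Sa_lat.1 rfl rfl c2_scana x.2 hn
    (fun n e hv => (tD_iff a0S_lat.1 c2Ra_eq c2Fa_eq hv).2 (by rw [e]; exact (by simpa using (show dotInt (dec a0S) x.1 = _ from hd))))
  exact ⟨g, fx_fix hg (by simp [c2L]) _, Subtype.ext he⟩

theorem c2b_base (x : ↥leechLattice) (hn : sqNorm x.1 = 32) (hd : dotInt v0L.1 x.1 = -8) :
    ∃ g : ↥Co0, g • v0L = v0L ∧ g • (⟨dec c2Sb, c2Sb_lat.2⟩ : ↥leechLattice) = x := by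
  obtain ⟨g, hg, he⟩ := orbit_of_scan (x0 := ⟨dec c2Sb, c2Sb_lat.2⟩) c2_sys (by decide +kernel) c2Sb_lat.1 rfl rfl c2_scanb x.2 hn
    (fun n e hv => (tD_iff a0S_lat.1 c2Ra_eq c2Fa_eq hv).2 (by rw [e]; exact (by simpa using (show dotInt (dec a0S) x.1 = _ from hd))))
  exact ⟨g, fx_fix hg (by simp [c2L]) _, Subtype.ext he⟩

theorem c2c_base (x : ↥leechLattice) (hn : sqNorm x.1 = 32) (hd : dotInt v0L.1 x.1 = 0) :
    ∃ g : ↥Co0, g • v0L = v0L ∧ g • (⟨dec c2Sc, c2Sc_lat.2⟩ : ↥leechLattice) = x := by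
  obtain ⟨g, hg, he⟩ := orbit_of_scan (x0 := ⟨dec c2Sc, c2Sc_lat.2⟩) c2_sys (by decide +kernel) c2Sc_lat.1 rfl rfl c2_scanc x.2 hn
    (fun n e hv => (tD_iff a0S_lat.1 c2Ra_eq c2Fa_eq hv).2 (by rw [e]; exact (by simpa using (show dotInt (dec a0S) x.1 = _ from hd))))
  exact ⟨g, fx_fix hg (by simp [c2L]) _, Subtype.ext he⟩

theorem co2_trans_a (v w w' : ↥leechLattice) (hv : sqNorm v.1 = 32) (hw : sqNorm w.1 = 32) (hw' : sqNorm w'.1 = 32)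
    (hd : dotInt v.1 w.1 = -16) (hd' : dotInt v.1 w'.1 = -16) : ∃ g : ↥Co0, g • v = v ∧ g • w = w' :=
  pair_trans_of_base v0L_norm c2a_base v w w' hv hw hw' hd hd'

theorem co2_trans_b (v w w' : ↥leechLattice) (hv : sqNorm v.1 = 32) (hw : sqNorm w.1 = 32) (hw' : sqNorm w'.1 = 32)
    (hd : dotInt v.1 w.1 = -8) (hd' : dotInt v.1 w'.1 = -8) : ∃ g : ↥Co0, g • v = v ∧ g • w = w' :=
  pair_trans_of_base v0L_norm c2b_base v w w' hv hw hw' hd hd'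

theorem co2_trans_c (v w w' : ↥leechLattice) (hv : sqNorm v.1 = 32) (hw : sqNorm w.1 = 32) (hw' : sqNorm w'.1 = 32)
    (hd : dotInt v.1 w.1 = 0) (hd' : dotInt v.1 w'.1 = 0) : ∃ g : ↥Co0, g • v = v ∧ g • w = w' :=
  pair_trans_of_base v0L_norm c2c_base v w w' hv hw hw' hd hd'

end Cfsg.Agent.Lib.LeechP
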