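/-
Counts of minimal vectors by inner product with the base vector.
-/
import Cfsg.Agent.Lib.LeechP.C2Sys

set_option autoImplicit false

namespace Cfsg.Agent.Lib.LeechP

theorem c2_cnta : cntMin (tD c2Ra c2Fa 0 16) = 4600 := by decide +kernel
theorem c2_cntb : cntMin (tD c2Ra c2Fa 0 8) = 47104 := by decide +kernel
theorem c2_cntc : cntMin (tD c2Ra c2Fa 0 0) = 93150 := by decide +kernel

end Cfsg.Agent.Lib.LeechP
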