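/-
Numbers of minimal vectors with a given inner product with a minimal vector.
-/
import Cfsg.Agent.Lib.LeechP.C2
import Cfsg.Agent.Lib.LeechP.C2Cnt

set_option autoImplicit false

namespace Cfsg.Agent.Lib.LeechP

open Cfsg Cfsg.Agent.Lib.Golay Cfsg.Agent.Lib.Golay.Leech Cfsg.Agent.Lib.LeechX Cfsg.Agent.Lib.M24

/-- Counting minimal vectors by an inner product. -/
theorem ncard_dot {a ra fa dp dn N : ℕ} (ha : Val a) (hra : revP a = ra) (hfa : coefP onesP a = fa)
    (hc : cntMin (tD ra fa dp dn) = N) :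
    {x : GolayPt → ℤ | x ∈ leechLattice ∧ sqNorm x = 32 ∧ dotInt (dec a) x = (dp : ℤ) - dn}.ncard = N := by
  rw [← hc]
  apply ncard_min
  intro n hn
  exact tD_iff ha hra hfa (val_minL hn)

/-- Automorphisms preserve the numbers of vectors. -/
theorem ncard_of_smul (g : ↥Co0) {A B : Set (GolayPt → ℤ)} (hA : ∀ x ∈ A, x ∈ leechLattice)
    (hB : ∀ x ∈ B, x ∈ leechLattice)
    (h : ∀ x (hx : x ∈ leechLattice), x ∈ A ↔ (g • (⟨x, hx⟩ : ↥leechLattice)).1 ∈ B) : A.ncard = B.ncard := by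
  apply Set.ncard_congr (fun x hx => (g • (⟨x, hA x hx⟩ : ↥leechLattice)).1)
  · intro x hx
    exact (h x (hA x hx)).1 hx
  · intro a b ha hb e
    have e2 := Subtype.ext e
    have e3 := smul_left_cancel g e2
    exact congrArg Subtype.val e3
  · intro y hy
    have h3 := (g⁻¹ • (⟨y, hB y hy⟩ : ↥leechLattice)).2
    refine ⟨(g⁻¹ • (⟨y, hB y hy⟩ : ↥leechLattice)).1, ?_, ?_⟩
    · rw [h _ h3]
      have : g • (⟨(g⁻¹ • (⟨y, hB y hy⟩ : ↥leechLattice)).1, h3⟩ : ↥leechLattice) = ⟨y, hB y hy⟩ := by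
        rw [Subtype.coe_eta, smul_inv_smul]
      rw [this]
      exact hy
    · simp

/-- The set of minimal vectors with a given inner product with a vector. -/
def dotSet (v : GolayPt → ℤ) (d : ℤ) : Set (GolayPt → ℤ) :=
  {x | x ∈ leechLattice ∧ sqNorm x = 32 ∧ dotInt v x = d}

theorem ncard_dotSet_smul (g : ↥Co0) (v : ↥leechLattice) (d : ℤ) :
    (dotSet v.1 d).ncard = (dotSet (g • v).1 d).ncard := by
  apply ncard_of_smul g
  · intro x hx
    exact hx.1
  · intro x hx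
    exact hx.1
  · intro x hx
    simp only [dotSet, Set.mem_ofPred_eq]
    have h1 := norm_smul g ⟨x, hx⟩
    have h2 := dot_smul g v ⟨x, hx⟩
    rw [h1, h2]
    simp [hx, (g • (⟨x, hx⟩ : ↥leechLattice)).2]

theorem census_base : (dotSet v0L.1 (-16)).ncard = 4600 ∧ (dotSet v0L.1 (-8)).ncard = 47104 ∧ (dotSet v0L.1 0).ncard = 93150 := by
  refine ⟨?_, ?_, ?_⟩
  · have h := ncard_dot a0S_lat.1 c2Ra_eq c2Fa_eq c2_cnta
    simp only [Nat.cast_zero, zero_sub, Nat.cast_ofNat] at h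
    exact h
  · have h := ncard_dot a0S_lat.1 c2Ra_eq c2Fa_eq c2_cntb
    simp only [Nat.cast_zero, zero_sub, Nat.cast_ofNat] at h
    exact h
  · have h := ncard_dot a0S_lat.1 c2Ra_eq c2Fa_eq c2_cntc
    simp only [Nat.cast_zero, sub_zero] at h
    exact h

theorem census (v : GolayPt → ℤ) (hv : v ∈ leechLattice) (hvn : sqNorm v = 32) :
    (dotSet v (-16)).ncard = 4600 ∧ (dotSet v (-8)).ncard = 47104 ∧ (dotSet v 0).ncard = 93150 := by
  obtain ⟨g, hg⟩ := min_trans ⟨v, hv⟩ v0L hvn v0L_norm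
  have h := census_base
  rw [← hg, ← ncard_dotSet_smul, ← ncard_dotSet_smul, ← ncard_dotSet_smul] at h
  exact h

end Cfsg.Agent.Lib.LeechP
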