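/-
The stabiliser of the standard cross is the monomial group of the code (helper17).
-/
import Cfsg.Agent.Lib.LeechX.Gl23
import Cfsg.Agent.Lib.LeechX.Xi
import Cfsg.Agent.Lib.Golay.M24Chain

set_option autoImplicit false

namespace Cfsg.Agent.Lib.LeechP

open Cfsg Cfsg.Agent.Lib.Golay Cfsg.Agent.Lib.Golay.Leech Cfsg.Agent.Lib.LeechX
open scoped Pointwise

theorem single_eight_mem (i : GolayPt) : (Pi.single i 8 : GolayPt → ℤ) ∈ leechLattice := by
  apply latB_sound
  revert i
  decide +kernel

/-- The standard frame vector. -/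
def eV (i : GolayPt) : ↥leechLattice := ⟨Pi.single i 8, single_eight_mem i⟩

theorem dot_single (x : GolayPt → ℤ) (i : GolayPt) (s : ℤ) :
    dotInt x (Pi.single i s) = x i * s := by
  rw [dotInt, Finset.sum_eq_single i]
  · simp
  · intro b _ hb
    simp [Pi.single_eq_of_ne hb]
  · simp

theorem code_lift {w : GolayPt → ZMod 2} (hw : w ∈ golayCode) :
    (fun i => if w i = 0 then (0 : ℤ) else 2) ∈ leechLattice := by
  rw [mem_leechLattice_iff]
  left
  refine ⟨fun i => ?_, ?_, ?_⟩
  · dsimp only
    split_ifs <;> rfl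
  · have h1 : ∑ i, (if w i = 0 then (0 : ℤ) else 2) = 2 * ((support₂ w).card : ℤ) := by
      rw [support₂, Finset.card_filter]
      push_cast
      rw [Finset.mul_sum]
      refine Finset.sum_congr rfl (fun i _ => ?_)
      by_cases h : w i = 0 <;> simp [h]
    rw [h1]
    have h2 := four_dvd_card hw
    omega
  · have : bitv (fun i => if w i = 0 then (0 : ℤ) else 2) = w := by
      funext i
      rw [bitv]
      generalize w i = a
      revert a
      decide
    rw [this]
    exact hw

theorem exists_sigma_c (g : ↥Co0)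
    (hg : ∀ v : ↥leechLattice, v.1 ∈ stdCross → (g.1 v).1 ∈ stdCross) :
    ∃ σ ∈ M24, ∃ c ∈ supports (golayCode : Set (GolayPt → ZMod 2)),
      ∀ v : ↥leechLattice, (g.1 v).1 = signedPerm σ c v.1 := by
  classical
  have h1 : ∀ i, ∃ j s, (s = 8 ∨ s = -8) ∧ (g.1 (eV i)).1 = Pi.single j s := fun i => by
    obtain ⟨j, s, hs, h⟩ := hg (eV i) ⟨i, 8, Or.inl rfl, rfl⟩
    exact ⟨j, s, hs, h⟩
  choose p s hs hp using h1
  have hdot : ∀ (v : ↥leechLattice) i, (g.1 v).1 (p i) * s i = v.1 i * 8 := fun v i => by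
    have := g_dot g v (eV i)
    rw [hp i, dot_single] at this
    rw [this]
    exact dot_single _ _ _
  have hinj : Function.Injective p := by
    intro i k hik
    by_contra hne
    have h3 := g_dot g (eV i) (eV k)
    rw [hp k, dot_single, hp i] at h3
    have h4 : dotInt (eV i).1 (eV k).1 = 0 := by
      refine (dot_single _ _ _).trans ?_
      show (Pi.single i 8 : GolayPt → ℤ) k * 8 = 0
      rw [Pi.single_eq_of_ne (Ne.symm hne)]
      simp
    rw [h4, ← hik, Pi.single_eq_same] at h3
    rcases hs i with h5 | h5 <;> rcases hs k with h6 | h6 <;> rw [h5, h6] at h3 <;> norm_num at h3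
  let σ : Equiv.Perm GolayPt := Equiv.ofBijective p (Finite.injective_iff_bijective.mp hinj)
  let c : Finset GolayPt := Finset.univ.filter (fun j => s (σ.symm j) = -8)
  have hact : ∀ (v : ↥leechLattice) j,
      (g.1 v).1 j = if j ∈ c then -v.1 (σ.symm j) else v.1 (σ.symm j) := by
    intro v j
    have h := hdot v (σ.symm j)
    have e : p (σ.symm j) = j := σ.apply_symm_apply j
    rw [e] at h
    simp only [c, Finset.mem_filter, Finset.mem_univ, true_and]
    rcases hs (σ.symm j) with h8 | h8
    · rw [h8] at h ⊢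
      rw [if_neg (by norm_num)]
      linarith
    · rw [h8] at h ⊢
      rw [if_pos rfl]
      linarith
  have hM : σ⁻¹ ∈ M24 := by
    rw [mem_M24_iff]
    intro w hw
    have hy := code_lift hw
    have hY := (g.1 ⟨_, hy⟩).2
    have hcoord := hact ⟨_, hy⟩
    have hval : ∀ j, (g.1 ⟨_, hy⟩).1 j = if j ∈ c then -(if w (σ.symm j) = 0 then (0 : ℤ) else 2)
        else (if w (σ.symm j) = 0 then (0 : ℤ) else 2) := hcoord
    rw [mem_leechLattice_iff] at hY
    rcases hY with hY | hY
    · have : w ∘ ⇑σ⁻¹ = bitv (g.1 ⟨_, hy⟩).1 := by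
        funext j
        show w (σ.symm j) = _
        rw [bitv]
        rw [hval j]
        generalize w (σ.symm j) = a
        by_cases hj : j ∈ c <;> simp only [hj, if_true, if_false] <;> revert a <;> decide
      rw [this]
      exact hY.2.2
    · exfalso
      have := hY.1 none
      rw [hval none] at this
      split_ifs at this <;> omega
  have hM' : σ ∈ M24 := by
    have := M24.inv_mem hM
    rwa [inv_inv] at this
  have hc : c ∈ supports (golayCode : Set (GolayPt → ZMod 2)) := by
    have hY := (g.1 ⟨oddV, oddV_mem⟩).2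
    have hval : ∀ j, (g.1 ⟨oddV, oddV_mem⟩).1 j = if j ∈ c then -oddV (σ.symm j) else oddV (σ.symm j) :=
      hact ⟨oddV, oddV_mem⟩
    have hU := perm_mem hM oddV_mem
    have hodd : ∀ a : GolayPt, oddV a = -3 ∨ oddV a = 1 := by
      intro a
      rw [oddV]
      split_ifs
      · exact Or.inl rfl
      · exact Or.inr rfl
    have hb1 : bitv (g.1 ⟨oddV, oddV_mem⟩).1 ∈ golayCode := by
      rw [mem_leechLattice_iff] at hY
      rcases hY with hY | hY
      · exfalso
        have := hY.1 none
        rw [hval none] at this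
        rcases hodd (σ.symm none) with h | h <;> rw [h] at this <;> split_ifs at this <;> omega
      · exact hY.2.2
    have hb2 : bitv (fun i => oddV (σ⁻¹ i)) ∈ golayCode := by
      rw [mem_leechLattice_iff] at hU
      rcases hU with hU | hU
      · exfalso
        have := hU.1 none
        rcases hodd (σ⁻¹ none) with h | h <;> dsimp only at this <;> rw [h] at this <;> omega
      · exact hU.2.2
    refine ⟨_, golayCode.add_mem hb1 hb2, ?_⟩
    ext j
    have e0 : (bitv (g.1 ⟨oddV, oddV_mem⟩).1 + bitv (fun i => oddV (σ⁻¹ i))) j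
        = (((if j ∈ c then -oddV (σ.symm j) else oddV (σ.symm j)) / 2 : ℤ) : ZMod 2)
          + ((oddV (σ.symm j) / 2 : ℤ) : ZMod 2) := by
      show (((g.1 ⟨oddV, oddV_mem⟩).1 j / 2 : ℤ) : ZMod 2) + _ = _
      rw [hval j]
      rfl
    have e1 : j ∈ support₂ (bitv (g.1 ⟨oddV, oddV_mem⟩).1 + bitv (fun i => oddV (σ⁻¹ i)))
        ↔ (bitv (g.1 ⟨oddV, oddV_mem⟩).1 + bitv (fun i => oddV (σ⁻¹ i))) j ≠ 0 := by
      simp [support₂]
    rw [e1, e0]
    by_cases hj : j ∈ c
    · rw [if_pos hj]
      simp only [hj, iff_true]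
      rcases hodd (σ.symm j) with h | h <;> rw [h] <;> decide
    · rw [if_neg hj]
      simp only [hj, iff_false]
      rcases hodd (σ.symm j) with h | h <;> rw [h] <;> decide
  refine ⟨σ, hM', c, hc, fun v => ?_⟩
  funext j
  rw [hact v j]
  rfl

/-- The monomial element. -/
def Phi (σ : Equiv.Perm GolayPt) (hσ : σ ∈ M24) (c : Finset GolayPt)
    (hc : c ∈ supports (golayCode : Set (GolayPt → ZMod 2))) : ↥Co0 :=
  signAut c hc * permAut σ⁻¹ (M24.inv_mem hσ)

theorem Phi_apply (σ : Equiv.Perm GolayPt) (hσ : σ ∈ M24) (c : Finset GolayPt)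
    (hc : c ∈ supports (golayCode : Set (GolayPt → ZMod 2))) (v : ↥leechLattice) :
    ((Phi σ hσ c hc).1 v).1 = signedPerm σ c v.1 := rfl

theorem signedPerm_single (σ : Equiv.Perm GolayPt) (c : Finset GolayPt) (i : GolayPt) (s : ℤ) :
    signedPerm σ c (Pi.single i s) = Pi.single (σ i) (if σ i ∈ c then -s else s) := by
  funext j
  rw [signedPerm]
  by_cases hj : j = σ i
  · subst hj
    simp
  · have h2 : σ.symm j ≠ i := by
      intro h
      apply hj
      rw [← h]
      simp
    simp only [Pi.single_eq_of_ne hj, Pi.single_eq_of_ne h2, neg_zero, ite_self]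

theorem Phi_std (σ : Equiv.Perm GolayPt) (hσ : σ ∈ M24) (c : Finset GolayPt)
    (hc : c ∈ supports (golayCode : Set (GolayPt → ZMod 2))) (v : ↥leechLattice) (hv : v.1 ∈ stdCross) :
    ((Phi σ hσ c hc).1 v).1 ∈ stdCross := by
  obtain ⟨i, s, hs, hv⟩ := hv
  rw [Phi_apply, hv, signedPerm_single]
  refine ⟨σ i, _, ?_, rfl⟩
  split_ifs <;> rcases hs with rfl | rfl <;> norm_num

theorem card_supports : Nat.card ↥(supports (golayCode : Set (GolayPt → ZMod 2))) = 4096 := by
  have hinj : Function.Injective (support₂ : (GolayPt → ZMod 2) → Finset GolayPt) :=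
    fun _ _ h => word_eq_of_support h
  rw [Nat.card_coe_set_eq, supports, Set.ncard_image_of_injective _ hinj, ← Nat.card_coe_set_eq]
  exact card_G

theorem card_stab :
    Nat.card {g : ↥Co0 // ∀ v : ↥leechLattice, v.1 ∈ stdCross → (g.1 v).1 ∈ stdCross}
      = 4096 * 244823040 := by
  classical
  let F : ↥(M24) × ↥(supports (golayCode : Set (GolayPt → ZMod 2))) →
      {g : ↥Co0 // ∀ v : ↥leechLattice, v.1 ∈ stdCross → (g.1 v).1 ∈ stdCross} :=
    fun a => ⟨Phi a.1.1 a.1.2 a.2.1 a.2.2, Phi_std _ _ _ _⟩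
  have hF : Function.Bijective F := by
    constructor
    · rintro ⟨⟨σ, hσ⟩, ⟨c, hc⟩⟩ ⟨⟨σ', hσ'⟩, ⟨c', hc'⟩⟩ h
      have h1 : Phi σ hσ c hc = Phi σ' hσ' c' hc' := congrArg Subtype.val h
      have h2 : ∀ i, signedPerm σ c (Pi.single i 8) = signedPerm σ' c' (Pi.single i 8) := by
        intro i
        have := congrArg (fun g : ↥Co0 => (g.1 (eV i)).1) h1
        simpa [Phi_apply, eV] using this
      simp only [signedPerm_single] at h2
      have h3 : ∀ i, σ i = σ' i := by
        intro i
        have h4 := congrFun (h2 i) (σ i)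
        rw [Pi.single_eq_same] at h4
        by_contra hne
        rw [Pi.single_eq_of_ne hne] at h4
        split_ifs at h4 <;> norm_num at h4
      have h5 : σ = σ' := Equiv.ext h3
      subst h5
      have h6 : c = c' := by
        ext j
        have h4 := congrFun (h2 (σ.symm j)) j
        simp only [Equiv.apply_symm_apply, Pi.single_eq_same] at h4
        by_cases h7 : j ∈ c <;> by_cases h8 : j ∈ c' <;> simp only [h7, h8, if_true, if_false] at h4 ⊢ <;>
          norm_num at h4
      subst h6
      rfl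
    · rintro ⟨g, hg⟩
      obtain ⟨σ, hσ, c, hc, h⟩ := exists_sigma_c g hg
      refine ⟨⟨⟨σ, hσ⟩, ⟨c, hc⟩⟩, ?_⟩
      apply Subtype.ext
      apply co0_ext
      intro v i
      show ((Phi σ hσ c hc).1 v).1 i = _
      rw [Phi_apply, h v]
  rw [← Nat.card_congr (Equiv.ofBijective F hF), Nat.card_prod, card_M24, card_supports, mul_comm]

end Cfsg.Agent.Lib.LeechP
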