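/-
The rank-24 lattice is generated by its minimal vectors (helper17).
-/
import Cfsg.Agent.Lib.LeechX.Xi

set_option autoImplicit false

namespace Cfsg.Agent.Lib.LeechP

open Cfsg Cfsg.Agent.Lib.Golay Cfsg.Agent.Lib.Golay.Leech Cfsg.Agent.Lib.LeechX

theorem closure_min_eq :
    AddSubgroup.closure {x : GolayPt → ℤ | x ∈ leechLattice ∧ sqNorm x = 32} = leechLattice := by
  apply le_antisymm
  · rw [AddSubgroup.closure_le]
    intro x hx
    exact hx.1
  · set S := AddSubgroup.closure {x : GolayPt → ℤ | x ∈ leechLattice ∧ sqNorm x = 32} with hS
    have hsub : ∀ {x : GolayPt → ℤ}, x ∈ leechLattice → sqNorm x = 32 → x ∈ S :=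
      fun hx hn => AddSubgroup.subset_closure ⟨hx, hn⟩
    have h2 : ∀ j, fd j ∈ S := by
      intro j
      by_cases hj : j = none
      · subst hj
        have : fd none = 0 := by
          funext i
          simp [fd]
        rw [this]
        exact S.zero_mem
      · apply hsub (fd_mem j)
        revert j
        decide +kernel
    apply lattice_le
    · apply hsub oddV_mem
      decide +kernel
    · exact h2
    · have h3 : (fun i : GolayPt => if i = none then (4 : ℤ) else if i = some 0 then 4 else 0) ∈ S := by
        apply hsub
        · apply latB_sound
          decide +kernel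
        · decide +kernel
      have h4 := S.sub_mem h3 (h2 (some 0))
      have : eightE = (fun i : GolayPt => if i = none then (4 : ℤ) else if i = some 0 then 4 else 0) - fd (some 0) := by
        funext i
        by_cases h1 : i = none
        · subst h1
          simp [eightE, fd]
        · by_cases h5 : i = some 0
          · subst h5
            simp [eightE, fd]
          · simp [eightE, fd, h1, h5]
      rw [this]
      exact h4
    · intro m hm
      apply hsub (dblE_mem m hm)
      revert m
      decide +kernel

end Cfsg.Agent.Lib.LeechP
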