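/-
Classes of the rank-24 lattice modulo twice the lattice: the count `2^24` shows that each class
contains a vector of sum of squares at most 64, and that crosses have 48 members (helper17).
-/
import Cfsg.Agent.Lib.LeechX.Xi
import Cfsg.Agent.Lib.Golay.LeechCount

set_option autoImplicit false

namespace Cfsg.Agent.Lib.LeechP

open Cfsg Cfsg.Agent.Lib.Golay Cfsg.Agent.Lib.Golay.Leech Cfsg.Agent.Lib.LeechX

/-- Twice the lattice. -/
def twoL : AddSubgroup (GolayPt → ℤ) := leechLattice.map dbl

theorem twoL_le : twoL ≤ leechLattice := by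
  rintro _ ⟨z, hz, rfl⟩
  have : dbl z = z + z := by
    funext i
    simp [dbl_apply, two_mul]
  rw [this]
  exact leechLattice.add_mem hz hz

theorem dbl_injective : Function.Injective dbl := fun _ _ h => dbl_inj h

theorem comap_twoL : twoL.comap dbl = leechLattice := by
  rw [twoL, AddSubgroup.comap_map_eq_self_of_injective dbl_injective]

theorem index_twoL : twoL.index = 2 ^ 60 := by
  have h1 : twoL.relIndex dbl.range * dbl.range.index = twoL.index :=
    AddSubgroup.relIndex_mul_index (by
      rintro _ ⟨z, -, rfl⟩
      exact ⟨z, rfl⟩)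
  have h2 : twoL.relIndex dbl.range = 2 ^ 36 := by
    rw [AddMonoidHom.range_eq_map, ← AddSubgroup.relIndex_comap, AddSubgroup.relIndex_top_right,
      comap_twoL, index_eq]
  have h3 : dbl.range.index = 2 ^ 24 := by
    rw [← pi2_ker_eq_range, index_E]
  rw [← h1, h2, h3]
  norm_num

theorem relIndex_twoL : twoL.relIndex leechLattice = 2 ^ 24 := by
  have h1 := AddSubgroup.relIndex_mul_index twoL_le
  rw [index_twoL, index_eq] at h1
  have h3 : (2 : ℕ) ^ 60 = 2 ^ 24 * 2 ^ 36 := by norm_num
  rw [h3] at h1
  exact Nat.eq_of_mul_eq_mul_right (by norm_num) h1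

/-- The group of classes. -/
abbrev QQ : Type := ↥leechLattice ⧸ twoL.addSubgroupOf leechLattice

theorem card_QQ : Nat.card QQ = 2 ^ 24 := by
  have : (twoL.addSubgroupOf leechLattice).index = 2 ^ 24 := relIndex_twoL
  rw [← this]
  rfl

instance : Finite QQ := Nat.finite_of_card_ne_zero (by rw [card_QQ]; norm_num)

noncomputable instance : Fintype QQ := Fintype.ofFinite _

/-- The class of a vector (zero off the lattice). -/
noncomputable def cls (x : GolayPt → ℤ) : QQ := by
  classical exact if h : x ∈ leechLattice then ((⟨x, h⟩ : ↥leechLattice) : QQ) else 0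

theorem cls_eq_iff {x y : GolayPt → ℤ} (hx : x ∈ leechLattice) (hy : y ∈ leechLattice) :
    cls x = cls y ↔ ∃ z ∈ leechLattice, x - y = (2 : ℕ) • z := by
  classical
  simp only [cls, dif_pos hx, dif_pos hy]
  rw [eq_comm, QuotientAddGroup.eq, AddSubgroup.mem_addSubgroupOf]
  constructor
  · rintro ⟨z, hz, h⟩
    refine ⟨z, hz, ?_⟩
    funext i
    have := congrFun h i
    simp only [dbl_apply, AddSubgroup.coe_add, NegMemClass.coe_neg, Pi.add_apply, Pi.neg_apply] at this
    simp only [Pi.sub_apply, Pi.smul_apply, two_nsmul]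
    linarith
  · rintro ⟨z, hz, h⟩
    refine ⟨z, hz, ?_⟩
    funext i
    have := congrFun h i
    simp only [Pi.sub_apply, Pi.smul_apply, two_nsmul] at this
    simp only [dbl_apply, AddSubgroup.coe_add, NegMemClass.coe_neg, Pi.add_apply, Pi.neg_apply]
    linarith

theorem nsmul_two_mem {z : GolayPt → ℤ} (hz : z ∈ leechLattice) : (2 : ℕ) • z ∈ leechLattice :=
  leechLattice.nsmul_mem hz 2

/-- A bound on the size of a frame. -/
theorem frame_card_le (F : Finset (GolayPt → ℤ)) (hn : ∀ x ∈ F, sqNorm x = 64)
    (ho : ∀ x ∈ F, ∀ y ∈ F, x ≠ y → x = -y ∨ dotInt x y = 0) : F.card ≤ 48 := by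
  classical
  -- pairs
  let pr : (GolayPt → ℤ) → Finset (GolayPt → ℤ) := fun y => {y, -y}
  have hfib : ∀ a ∈ F.image pr, (F.filter fun x => pr x = a).card ≤ 2 := by
    intro a ha
    obtain ⟨y, -, rfl⟩ := Finset.mem_image.mp ha
    have hsub : (F.filter fun x => pr x = pr y) ⊆ pr y := by
      intro x hx
      have h1 : pr x = pr y := (Finset.mem_filter.mp hx).2
      rw [← h1]
      simp [pr]
    exact (Finset.card_le_card hsub).trans Finset.card_le_two
  have hle := Finset.card_le_mul_card_image F 2 hfib
  -- representatives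
  have hrep : ∀ a : ↥(F.image pr), ∃ y ∈ F, pr y = a.1 := fun a => Finset.mem_image.mp a.2
  choose rp hrpF hrp using hrep
  let v : ↥(F.image pr) → (GolayPt → ℚ) := fun a i => (rp a i : ℚ)
  have hdot : ∀ a b : ↥(F.image pr), ∑ i, v a i * v b i = if a = b then 64 else 0 := by
    intro a b
    by_cases hab : a = b
    · subst hab
      rw [if_pos rfl]
      have := hn _ (hrpF a)
      rw [sqNorm] at this
      have h2 : ((∑ i, rp a i ^ 2 : ℤ) : ℚ) = 64 := by rw [this]; norm_num
      push_cast at h2
      rw [← h2]
      refine Finset.sum_congr rfl (fun i _ => ?_)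
      simp only [v]
      ring
    · rw [if_neg hab]
      have hne : rp a ≠ rp b := by
        intro h
        apply hab
        apply Subtype.ext
        rw [← hrp a, ← hrp b, h]
      rcases ho _ (hrpF a) _ (hrpF b) hne with h | h
      · exfalso
        apply hab
        apply Subtype.ext
        rw [← hrp a, ← hrp b, h]
        ext x
        simp only [pr, Finset.mem_insert, Finset.mem_singleton, neg_neg]
        tauto
      · rw [dotInt] at h
        have h2 : ((∑ i, rp a i * rp b i : ℤ) : ℚ) = 0 := by rw [h]; norm_num
        push_cast at h2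
        rw [← h2]
    
  have hli : LinearIndependent ℚ v := by
    rw [Fintype.linearIndependent_iff]
    intro c hc a
    have h1 : ∑ i, (∑ b, c b • v b) i * v a i = 0 := by
      rw [hc]
      simp
    have h2 : ∑ i, (∑ b, c b • v b) i * v a i = c a * 64 := by
      simp only [Finset.sum_apply, Pi.smul_apply, smul_eq_mul, Finset.sum_mul]
      rw [Finset.sum_comm]
      have : ∀ b, ∑ i, c b * v b i * v a i = c b * (if b = a then 64 else 0) := by
        intro b
        rw [← hdot b a, Finset.mul_sum]
        refine Finset.sum_congr rfl (fun i _ => ?_)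
        ring
      simp only [this]
      rw [Finset.sum_eq_single a]
      · simp
      · intro b _ hb
        simp [hb]
      · simp
    rw [h2] at h1
    linarith
  have hcard := hli.fintype_card_le_finrank
  rw [Module.finrank_fintype_fun_eq_card, card_golayPt, Fintype.card_coe] at hcard
  omega

section count

/-- Vectors of a given sum of squares. -/
def vecs (N : ℤ) : Set (GolayPt → ℤ) := {x | x ∈ leechLattice ∧ sqNorm x = N}

theorem vecs_finite {N : ℤ} (h : (vecs N).ncard ≠ 0) : (vecs N).Finite :=
  Set.finite_of_ncard_ne_zero h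

theorem ncard_32 : (vecs 32).ncard = 196560 := ncard_norm32
theorem ncard_48 : (vecs 48).ncard = 16773120 := ncard_norm48
theorem ncard_64 : (vecs 64).ncard = 398034000 := ncard_norm64

theorem finite_32 : (vecs 32).Finite := vecs_finite (by rw [ncard_32]; norm_num)
theorem finite_48 : (vecs 48).Finite := vecs_finite (by rw [ncard_48]; norm_num)
theorem finite_64 : (vecs 64).Finite := vecs_finite (by rw [ncard_64]; norm_num)

open Classical in
/-- The members of a class with a given sum of squares. -/
noncomputable def fib (N : ℤ) (hf : (vecs N).Finite) (q : QQ) : Finset (GolayPt → ℤ) :=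
  hf.toFinset.filter fun x => cls x = q

theorem mem_fib {N : ℤ} {hf : (vecs N).Finite} {q : QQ} {x : GolayPt → ℤ} :
    x ∈ fib N hf q ↔ x ∈ leechLattice ∧ sqNorm x = N ∧ cls x = q := by
  classical
  simp only [fib, Finset.mem_filter, Set.Finite.mem_toFinset, vecs, Set.mem_ofPred_eq, and_assoc]

theorem sum_fib (N : ℤ) (hf : (vecs N).Finite) : ∑ q, (fib N hf q).card = (vecs N).ncard := by
  classical
  rw [Set.ncard_eq_toFinset_card _ hf]
  exact (Finset.card_eq_sum_card_fiberwise (fun x _ => Finset.mem_univ (cls x))).symm

open Classical in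
/-- The weighted size of a class. -/
noncomputable def wt (q : QQ) : ℕ :=
  48 * (if q = cls 0 then 1 else 0) + 24 * (fib 32 finite_32 q).card + 24 * (fib 48 finite_48 q).card
    + (fib 64 finite_64 q).card

theorem norm_cases {x : GolayPt → ℤ} (hx : x ∈ leechLattice) (hn : sqNorm x ≤ 64) :
    x = 0 ∨ sqNorm x = 32 ∨ sqNorm x = 48 ∨ sqNorm x = 64 := by
  by_cases h0 : x = 0
  · exact Or.inl h0
  · right
    have h1 := norm_ge' hx h0
    have h2 := sixteen_dvd' hx
    omega

theorem small_fib_eq {x : GolayPt → ℤ} (hx : x ∈ leechLattice) (hn : sqNorm x < 64)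
    {y : GolayPt → ℤ} (hy : y ∈ leechLattice) (hyn : sqNorm y ≤ 64) (h : cls y = cls x) :
    y = x ∨ y = -x := by
  have := (mod_two_statement' hx hy hn.le hyn ((cls_eq_iff hx hy).mp h.symm)).2 hn
  exact this

theorem cls_zero_mem : (0 : GolayPt → ℤ) ∈ leechLattice := leechLattice.zero_mem

theorem sqNorm_zero' : sqNorm (0 : GolayPt → ℤ) = 0 := by simp [sqNorm]

theorem wt_le (q : QQ) : wt q ≤ 48 := by
  classical
  unfold wt
  by_cases hq : q = cls 0
  · -- the zero class
    subst hq
    have h1 : ∀ N (hf : (vecs N).Finite), 0 < N → N ≤ 64 → fib N hf (cls 0) = ∅ := by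
      intro N hf hN hN' 
      rw [Finset.eq_empty_iff_forall_notMem]
      intro x hx
      obtain ⟨hx1, hx2, hx3⟩ := mem_fib.mp hx
      have := small_fib_eq (x := 0) cls_zero_mem (by rw [sqNorm_zero']; norm_num) hx1 (by omega) hx3
      have h0 : x = 0 := by
        rcases this with h | h
        · exact h
        · simpa using h
      subst h0
      rw [sqNorm_zero'] at hx2
      omega
    rw [h1 32 _ (by norm_num) (by norm_num), h1 48 _ (by norm_num) (by norm_num),
      h1 64 _ (by norm_num) (by norm_num)]
    simp
  · rw [if_neg hq]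
    -- a small member
    have hsmall : ∀ x, x ∈ leechLattice → sqNorm x < 64 → 0 < sqNorm x → cls x = q →
        24 * (fib 32 finite_32 q).card + 24 * (fib 48 finite_48 q).card + (fib 64 finite_64 q).card ≤ 48 := by
      intro x hx hn hn0 hc
      have h64 : fib 64 finite_64 q = ∅ := by
        rw [Finset.eq_empty_iff_forall_notMem]
        intro y hy
        obtain ⟨hy1, hy2, hy3⟩ := mem_fib.mp hy
        rcases small_fib_eq hx hn hy1 hy2.le (by rw [hy3, hc]) with h | h
        · subst h; omega
        · subst h
          rw [sqNorm_neg] at hy2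
          omega
      have hne : x ≠ -x := by
        intro h
        have h0 : x = 0 := by
          funext i
          have := congrFun h i
          simp only [Pi.neg_apply] at this
          simp only [Pi.zero_apply]
          omega
        subst h0
        rw [sqNorm_zero'] at hn0
        omega
      have hpair : ∀ N (hf : (vecs N).Finite), N ≤ 64 → fib N hf q ⊆ {x, -x} := by
        intro N hf hN y hy
        obtain ⟨hy1, hy2, hy3⟩ := mem_fib.mp hy
        rcases small_fib_eq hx hn hy1 (by omega) (by rw [hy3, hc]) with h | h <;> simp [h]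
      have h2 : sqNorm x = 32 ∨ sqNorm x = 48 := by
        have := norm_cases hx hn.le
        rcases this with h | h | h | h
        · subst h
          rw [sqNorm_zero'] at hn0
          omega
        · exact Or.inl h
        · exact Or.inr h
        · omega
      have hc2 : ∀ N (hf : (vecs N).Finite), N ≤ 64 → (fib N hf q).card ≤ 2 := fun N hf hN =>
        (Finset.card_le_card (hpair N hf hN)).trans Finset.card_le_two
      rw [h64, Finset.card_empty]
      rcases h2 with h2 | h2
      · have h48 : fib 48 finite_48 q = ∅ := by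
          rw [Finset.eq_empty_iff_forall_notMem]
          intro y hy
          obtain ⟨hy1, hy2, hy3⟩ := mem_fib.mp hy
          have := hpair 48 finite_48 (by norm_num) hy
          simp only [Finset.mem_insert, Finset.mem_singleton] at this
          rcases this with h | h
          · subst h; omega
          · subst h
            rw [sqNorm_neg] at hy2
            omega
        rw [h48, Finset.card_empty]
        have := hc2 32 finite_32 (by norm_num)
        omega
      · have h32 : fib 32 finite_32 q = ∅ := by
          rw [Finset.eq_empty_iff_forall_notMem]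
          intro y hy
          obtain ⟨hy1, hy2, hy3⟩ := mem_fib.mp hy
          have := hpair 32 finite_32 (by norm_num) hy
          simp only [Finset.mem_insert, Finset.mem_singleton] at this
          rcases this with h | h
          · subst h; omega
          · subst h
            rw [sqNorm_neg] at hy2
            omega
        rw [h32, Finset.card_empty]
        have := hc2 48 finite_48 (by norm_num)
        omega
    by_cases h32 : (fib 32 finite_32 q).Nonempty
    · obtain ⟨x, hx⟩ := h32
      obtain ⟨h1, h2, h3⟩ := mem_fib.mp hx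
      have := hsmall x h1 (by omega) (by omega) h3
      omega
    by_cases h48 : (fib 48 finite_48 q).Nonempty
    · obtain ⟨x, hx⟩ := h48
      obtain ⟨h1, h2, h3⟩ := mem_fib.mp hx
      have := hsmall x h1 (by omega) (by omega) h3
      omega
    rw [Finset.not_nonempty_iff_eq_empty] at h32 h48
    rw [h32, h48]
    simp only [Finset.card_empty, mul_zero, add_zero, zero_add]
    apply frame_card_le
    · intro x hx
      exact (mem_fib.mp hx).2.1
    · intro x hx y hy hxy
      obtain ⟨h1, h2, h3⟩ := mem_fib.mp hx
      obtain ⟨h4, h5, h6⟩ := mem_fib.mp hy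
      have := mod_two_statement h1 h4 hxy h2.le h5.le ((cls_eq_iff h1 h4).mp (by rw [h3, h6]))
      rcases this with h | h
      · exact Or.inl h
      · exact Or.inr h.2.2

theorem wt_eq (q : QQ) : wt q = 48 := by
  classical
  have hsum : ∑ q, wt q = ∑ _q : QQ, 48 := by
    rw [Finset.sum_const, Finset.card_univ, ← Nat.card_eq_fintype_card, card_QQ]
    unfold wt
    simp only [Finset.sum_add_distrib, ← Finset.mul_sum, sum_fib, ncard_32, ncard_48, ncard_64]
    simp only [Finset.sum_ite_eq', Finset.mem_univ, if_true]
    norm_num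
  exact (Finset.sum_eq_sum_iff_of_le (fun q _ => wt_le q)).mp hsum q (Finset.mem_univ q)

/-- Each class contains a short vector. -/
theorem exists_short {x : GolayPt → ℤ} (hx : x ∈ leechLattice) :
    ∃ y ∈ leechLattice, sqNorm y ≤ 64 ∧ ∃ z ∈ leechLattice, x - y = (2 : ℕ) • z := by
  classical
  have h := wt_eq (cls x)
  unfold wt at h
  have key : ∃ y ∈ leechLattice, sqNorm y ≤ 64 ∧ cls y = cls x := by
    by_cases h0 : cls x = cls 0
    · exact ⟨0, cls_zero_mem, by rw [sqNorm_zero']; norm_num, h0.symm⟩
    by_cases h32 : (fib 32 finite_32 (cls x)).Nonempty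
    · obtain ⟨y, hy⟩ := h32
      obtain ⟨h1, h2, h3⟩ := mem_fib.mp hy
      exact ⟨y, h1, by omega, h3⟩
    by_cases h48 : (fib 48 finite_48 (cls x)).Nonempty
    · obtain ⟨y, hy⟩ := h48
      obtain ⟨h1, h2, h3⟩ := mem_fib.mp hy
      exact ⟨y, h1, by omega, h3⟩
    by_cases h64 : (fib 64 finite_64 (cls x)).Nonempty
    · obtain ⟨y, hy⟩ := h64
      obtain ⟨h1, h2, h3⟩ := mem_fib.mp hy
      exact ⟨y, h1, by omega, h3⟩
    rw [Finset.not_nonempty_iff_eq_empty] at h32 h48 h64
    rw [h32, h48, h64, if_neg h0] at h
    simp at h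
  obtain ⟨y, hy, hyn, hc⟩ := key
  exact ⟨y, hy, hyn, (cls_eq_iff hx hy).mp hc.symm⟩

/-- The cross through a vector of sum of squares 64 has 48 members. -/
theorem ncard_cross {x : GolayPt → ℤ} (hx : x ∈ leechLattice) (hn : sqNorm x = 64) :
    (cross x).ncard = 48 := by
  classical
  have h := wt_eq (cls x)
  unfold wt at h
  have hemp : ∀ N (hf : (vecs N).Finite), N < 64 → 0 < N → fib N hf (cls x) = ∅ := by
    intro N hf hN hN0
    rw [Finset.eq_empty_iff_forall_notMem]
    intro y hy
    obtain ⟨h1, h2, h3⟩ := mem_fib.mp hy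
    rcases small_fib_eq h1 (by omega) hx hn.le h3.symm with h | h
    · subst h; omega
    · subst h
      rw [sqNorm_neg] at hn
      omega
  have h00 : cls x ≠ cls 0 := by
    intro h0
    rcases small_fib_eq (x := 0) cls_zero_mem (by rw [sqNorm_zero']; norm_num) hx hn.le h0 with h | h
    · subst h
      rw [sqNorm_zero'] at hn
      omega
    · simp only [neg_zero] at h
      subst h
      rw [sqNorm_zero'] at hn
      omega
  rw [hemp 32 _ (by norm_num) (by norm_num), hemp 48 _ (by norm_num) (by norm_num), if_neg h00] at h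
  simp only [Finset.card_empty, mul_zero, add_zero, zero_add] at h
  rw [← h]
  have : cross x = ↑(fib 64 finite_64 (cls x)) := by
    ext y
    simp only [cross, Set.mem_ofPred_eq, Finset.mem_coe, mem_fib]
    constructor
    · rintro ⟨h1, h2, h3⟩
      exact ⟨h1, by omega, ((cls_eq_iff hx h1).mpr h3).symm⟩
    · rintro ⟨h1, h2, h3⟩
      exact ⟨h1, by omega, (cls_eq_iff hx h1).mp h3.symm⟩
  rw [this, Set.ncard_coe_finset]

end count

end Cfsg.Agent.Lib.LeechP
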