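/-
Counts of summands of vectors of sum of squares 48 and 64.
-/
import Cfsg.Agent.Lib.LeechP.C2Cnt

set_option autoImplicit false

namespace Cfsg.Agent.Lib.LeechP

def su48 : ℕ := 12024684809953228409862751860452295167780251052267930908097321865684761635291394531355371551306294856741708234770
def su48R : ℕ := 10822212659864070241422727427711541054527611825238706368629840589958040635678900155635398653197514014774510223380
def su48F : ℕ := 400
def su64 : ℕ := 9619777205192823184503923729340014051747552122185811347938852437139414791240640417832124209630863664498451939352
def su64R : ℕ := 14429592414713633635221579991564576283812949982350050443147384346837378874675358510045779758322869968307854770192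
def su64F : ℕ := 392

theorem su48_cnt : cntMin (tD su48R su48F 24 0) = 552 := by decide +kernel
theorem su64_cnt : cntMin (tD su64R su64F 32 0) = 46 := by decide +kernel

end Cfsg.Agent.Lib.LeechP
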