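/-
Pairs of minimal vectors with inner product minus eight and their sums.
-/
import Cfsg.Agent.Lib.LeechP.C2

set_option autoImplicit false

namespace Cfsg.Agent.Lib.LeechP

open Cfsg Cfsg.Agent.Lib.Golay Cfsg.Agent.Lib.Golay.Leech Cfsg.Agent.Lib.LeechX Cfsg.Agent.Lib.M24

theorem smul_add' (g : ↥Co0) (x y : ↥leechLattice) : g • (x + y) = g • x + g • y := g.2.1 x y

theorem smul_sub' (g : ↥Co0) (x y : ↥leechLattice) : g • (x - y) = g • x - g • y := by
  have h := smul_add' g (x - y) y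
  rw [sub_add_cancel] at h
  rw [h, add_sub_cancel_right]

theorem smul_neg' (g : ↥Co0) (x : ↥leechLattice) : g • (-x) = - (g • x) := co0_map_neg g x

/-- The inner product of summands. -/
theorem dot_of_sum {u v : GolayPt → ℤ} {a b c : ℤ} (hu : sqNorm u = a) (hv : sqNorm v = b) (hw : sqNorm (u - v) = c) :
    2 * dotInt u v = a + b - c := by
  have := sqNorm_sub u v
  rw [hu, hv, hw] at this
  linarith

theorem dot_sub_right (v u w : GolayPt → ℤ) : dotInt v (u - w) = dotInt v u - dotInt v w := by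
  simp only [dotInt, Pi.sub_apply, mul_sub, Finset.sum_sub_distrib]

theorem dot_add_right (v u w : GolayPt → ℤ) : dotInt v (u + w) = dotInt v u + dotInt v w := by
  simp only [dotInt, Pi.add_apply, mul_add, Finset.sum_add_distrib]

theorem dot_self_eq (v : GolayPt → ℤ) : dotInt v v = sqNorm v := by
  simp only [dotInt, sqNorm]
  exact Finset.sum_congr rfl (fun i _ => by ring)

/-- Transitivity on ordered pairs of minimal vectors with inner product minus eight. -/
theorem pair_trans_b (v w v' w' : ↥leechLattice) (hv : sqNorm v.1 = 32) (hw : sqNorm w.1 = 32)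
    (hv' : sqNorm v'.1 = 32) (hw' : sqNorm w'.1 = 32) (hd : dotInt v.1 w.1 = -8) (hd' : dotInt v'.1 w'.1 = -8) :
    ∃ g : ↥Co0, g • v = v' ∧ g • w = w' := by
  obtain ⟨a, ha⟩ := min_trans v v' hv hv'
  obtain ⟨g, h1, h2⟩ := co2_trans_b v' (a • w) w' hv' (by rw [norm_smul]; exact hw) hw'
    (by rw [← ha, dot_smul]; exact hd) hd'
  refine ⟨g * a, ?_, ?_⟩
  · rw [mul_smul, ha, h1]
  · rw [mul_smul, h2]

/-- Transitivity on ordered pairs of minimal vectors with inner product minus sixteen. -/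
theorem pair_trans_a (v w v' w' : ↥leechLattice) (hv : sqNorm v.1 = 32) (hw : sqNorm w.1 = 32)
    (hv' : sqNorm v'.1 = 32) (hw' : sqNorm w'.1 = 32) (hd : dotInt v.1 w.1 = -16) (hd' : dotInt v'.1 w'.1 = -16) :
    ∃ g : ↥Co0, g • v = v' ∧ g • w = w' := by
  obtain ⟨a, ha⟩ := min_trans v v' hv hv'
  obtain ⟨g, h1, h2⟩ := co2_trans_a v' (a • w) w' hv' (by rw [norm_smul]; exact hw) hw'
    (by rw [← ha, dot_smul]; exact hd) hd'
  refine ⟨g * a, ?_, ?_⟩
  · rw [mul_smul, ha, h1]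
  · rw [mul_smul, h2]

/-- Transitivity on ordered pairs of orthogonal minimal vectors. -/
theorem pair_trans_c (v w v' w' : ↥leechLattice) (hv : sqNorm v.1 = 32) (hw : sqNorm w.1 = 32)
    (hv' : sqNorm v'.1 = 32) (hw' : sqNorm w'.1 = 32) (hd : dotInt v.1 w.1 = 0) (hd' : dotInt v'.1 w'.1 = 0) :
    ∃ g : ↥Co0, g • v = v' ∧ g • w = w' := by
  obtain ⟨a, ha⟩ := min_trans v v' hv hv'
  obtain ⟨g, h1, h2⟩ := co2_trans_c v' (a • w) w' hv' (by rw [norm_smul]; exact hw) hw'
    (by rw [← ha, dot_smul]; exact hd) hd'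
  refine ⟨g * a, ?_, ?_⟩
  · rw [mul_smul, ha, h1]
  · rw [mul_smul, h2]

/-- The stabiliser of a sum is transitive on the summands. -/
theorem summand_trans (u v v' : ↥leechLattice) (hu : sqNorm u.1 = 48) (hv : sqNorm v.1 = 32 ∧ sqNorm (u.1 - v.1) = 32)
    (hv' : sqNorm v'.1 = 32 ∧ sqNorm (u.1 - v'.1) = 32) : ∃ g : ↥Co0, g • u = u ∧ g • v = v' := by
  have key : ∀ v : ↥leechLattice, sqNorm v.1 = 32 ∧ sqNorm (u.1 - v.1) = 32 → dotInt v.1 (u - v).1 = -8 := by
    intro v hv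
    have h1 := dot_of_sum hu hv.1 hv.2
    have h2 : dotInt v.1 (u.1 - v.1) = dotInt v.1 u.1 - dotInt v.1 v.1 := dot_sub_right _ _ _
    rw [dot_self_eq, hv.1, dotInt_comm v.1 u.1] at h2
    show dotInt v.1 (u.1 - v.1) = -8
    rw [h2]
    omega
  obtain ⟨g, h1, h2⟩ := pair_trans_b v (u - v) v' (u - v') hv.1 hv.2 hv'.1 hv'.2 (key v hv) (key v' hv')
  refine ⟨g, ?_, h1⟩
  have h3 := smul_add' g v (u - v)
  rw [add_sub_cancel, h1, h2, add_sub_cancel] at h3
  exact h3

end Cfsg.Agent.Lib.LeechP
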