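/-
Double counting: vectors that are sums of two minimal vectors with a given inner product.
-/
import Cfsg.Agent.Lib.LeechP.Pairs
import Cfsg.Agent.Lib.LeechP.C2Count

set_option autoImplicit false

namespace Cfsg.Agent.Lib.LeechP

open Cfsg Cfsg.Agent.Lib.Golay Cfsg.Agent.Lib.Golay.Leech Cfsg.Agent.Lib.LeechX Cfsg.Agent.Lib.M24

section count

variable {d : ℤ} {k c T : ℕ}

/-- The sets of given sum of squares. -/
def normSet (N : ℤ) : Set (GolayPt → ℤ) := {x | x ∈ leechLattice ∧ sqNorm x = N}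

theorem dot_sub_self {u v : GolayPt → ℤ} {d : ℤ} (hv : sqNorm v = 32) :
    dotInt v (u - v) = d ↔ dotInt u v = 32 + d := by
  rw [dot_sub_right, dot_self_eq, hv, dotInt_comm v u]
  constructor <;> intro h <;> linarith

theorem norm_sub_of {u v : GolayPt → ℤ} {d : ℤ} (hu : sqNorm u = 64 + 2 * d) (hv : sqNorm v = 32) (h : dotInt u v = 32 + d) :
    sqNorm (u - v) = 32 := by
  rw [sqNorm_sub, hu, hv, h]
  ring

theorem norm_add_of {v w : GolayPt → ℤ} {d : ℤ} (hv : sqNorm v = 32) (hw : sqNorm w = 32) (h : dotInt v w = d) :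
    sqNorm (v + w) = 64 + 2 * d := by
  rw [sqNorm_add, hv, hw, h]
  ring

/-- The vectors `u` having a given minimal vector as a summand. -/
theorem ncard_above (hk : ∀ v ∈ leechLattice, sqNorm v = 32 → (dotSet v d).ncard = k) {v : GolayPt → ℤ} (hv : v ∈ leechLattice)
    (hvn : sqNorm v = 32) :
    {u : GolayPt → ℤ | u ∈ leechLattice ∧ sqNorm u = 64 + 2 * d ∧ dotInt u v = 32 + d}.ncard = k := by
  rw [← hk v hv hvn]
  apply Set.ncard_congr (fun u _ => u - v)
  · rintro u ⟨h1, h2, h3⟩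
    exact ⟨leechLattice.sub_mem h1 hv, norm_sub_of h2 hvn h3, (dot_sub_self hvn).2 h3⟩
  · intro a b _ _ e
    exact sub_left_inj.mp e
  · rintro w ⟨h1, h2, h3⟩
    refine ⟨v + w, ⟨leechLattice.add_mem hv h1, norm_add_of hvn h2 h3, ?_⟩, by simp⟩
    have := (dot_sub_self (u := v + w) (d := d) hvn).1 (by simpa using h3)
    exact this

/-- Double counting. -/
theorem double_count (hk : ∀ v ∈ leechLattice, sqNorm v = 32 → (dotSet v d).ncard = k)
    (hT : (normSet (64 + 2 * d)).ncard = T) (hT0 : T ≠ 0) :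
    ∑ᶠ u ∈ normSet (64 + 2 * d), (dotSet u (32 + d)).ncard = 196560 * k := by
  classical
  have hfinN : (normSet (64 + 2 * d)).Finite := Set.finite_of_ncard_ne_zero (by rw [hT]; exact hT0)
  have hA : {x : GolayPt → ℤ | x ∈ leechLattice ∧ sqNorm x = 32}.ncard = 196560 := ncard_norm32
  have hfinA : {x : GolayPt → ℤ | x ∈ leechLattice ∧ sqNorm x = 32}.Finite :=
    Set.finite_of_ncard_ne_zero (by rw [hA]; norm_num)
  set SN := hfinN.toFinset with hSN
  set SA := hfinA.toFinset with hSA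
  rw [finsum_mem_eq_finite_toFinset_sum _ hfinN]
  have h1 := Finset.sum_card_bipartiteAbove_eq_sum_card_bipartiteBelow (s := SN) (t := SA) (fun u v => dotInt u v = 32 + d)
  have h2 : ∀ u ∈ SN, (dotSet u (32 + d)).ncard = (SA.bipartiteAbove (fun u v => dotInt u v = 32 + d) u).card := by
    intro u _
    rw [← Set.ncard_coe_finset]
    congr 1
    ext x
    simp only [Finset.mem_coe, Finset.bipartiteAbove, Finset.mem_filter, hSA, Set.Finite.mem_toFinset]
    constructor
    · rintro ⟨a, b, e⟩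
      exact ⟨⟨a, b⟩, e⟩
    · rintro ⟨⟨a, b⟩, e⟩
      exact ⟨a, b, e⟩
  have h3 : ∀ v ∈ SA, (SN.bipartiteBelow (fun u v => dotInt u v = 32 + d) v).card = k := by
    intro v hv
    have hv' : v ∈ leechLattice ∧ sqNorm v = 32 := by
      simpa [hSA] using hv
    rw [← ncard_above hk hv'.1 hv'.2, ← Set.ncard_coe_finset]
    congr 1
    ext x
    simp only [Finset.mem_coe, Finset.bipartiteBelow, Finset.mem_filter, hSN, Set.Finite.mem_toFinset]
    constructor
    · rintro ⟨⟨a, b⟩, e⟩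
      exact ⟨a, b, e⟩
    · rintro ⟨a, b, e⟩
      exact ⟨⟨a, b⟩, e⟩
  rw [Finset.sum_congr rfl h2, h1, Finset.sum_congr rfl h3, Finset.sum_const, smul_eq_mul,
    ← Set.ncard_eq_toFinset_card _ hfinA, hA]

/-- All vectors of the right sum of squares are in one orbit. -/
theorem sums_all (hk : ∀ v ∈ leechLattice, sqNorm v = 32 → (dotSet v d).ncard = k)
    (hT : (normSet (64 + 2 * d)).ncard = T) (hT0 : T ≠ 0) (hc0 : c ≠ 0) (hmul : 196560 * k = c * T)
    (hpair : ∀ v w v' w' : ↥leechLattice, sqNorm v.1 = 32 → sqNorm w.1 = 32 → sqNorm v'.1 = 32 → sqNorm w'.1 = 32 →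
      dotInt v.1 w.1 = d → dotInt v'.1 w'.1 = d → ∃ g : ↥Co0, g • v = v' ∧ g • w = w')
    (v0 w0 : ↥leechLattice) (hv0 : sqNorm v0.1 = 32) (hw0 : sqNorm w0.1 = 32) (hd0 : dotInt v0.1 w0.1 = d)
    (hc : (dotSet (v0 + w0).1 (32 + d)).ncard = c) (u : ↥leechLattice) (hu : sqNorm u.1 = 64 + 2 * d) :
    ∃ g : ↥Co0, g • (v0 + w0) = u := by
  classical
  have hfinN : (normSet (64 + 2 * d)).Finite := Set.finite_of_ncard_ne_zero (by rw [hT]; exact hT0)
  -- the sums
  let O : Set (GolayPt → ℤ) := {x | ∃ h : x ∈ leechLattice, ∃ g : ↥Co0, g • (v0 + w0) = ⟨x, h⟩}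
  have hOle : O ⊆ normSet (64 + 2 * d) := by
    rintro x ⟨h, g, hg⟩
    refine ⟨h, ?_⟩
    have h1 := norm_smul g (v0 + w0)
    rw [hg] at h1
    rw [show sqNorm (⟨x, h⟩ : ↥leechLattice).1 = sqNorm x from rfl] at h1
    rw [h1]
    exact norm_add_of hv0 hw0 hd0
  have hval : ∀ x ∈ normSet (64 + 2 * d), (dotSet x (32 + d)).ncard = if x ∈ O then c else 0 := by
    rintro x ⟨h1, h2⟩
    split_ifs with hx
    · obtain ⟨h, g, hg⟩ := hx
      rw [← hc]
      have := ncard_dotSet_smul g (v0 + w0) (32 + d)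
      rw [hg] at this
      exact this.symm
    · rw [Set.ncard_eq_zero (hs := ?_)]
      · rw [Set.eq_empty_iff_forall_notMem]
        rintro v ⟨hv1, hv2, hv3⟩
        apply hx
        have hw : sqNorm (x - v) = 32 := norm_sub_of h2 hv2 hv3
        have hdd : dotInt v (x - v) = d := (dot_sub_self hv2).2 hv3
        obtain ⟨g, hg1, hg2⟩ := hpair v0 w0 ⟨v, hv1⟩ ⟨x - v, leechLattice.sub_mem h1 hv1⟩ hv0 hw0 hv2 hw hd0 hdd
        refine ⟨h1, g, ?_⟩
        rw [smul_add', hg1, hg2]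
        apply Subtype.ext
        show v + (x - v) = x
        abel
      · have hA : {x : GolayPt → ℤ | x ∈ leechLattice ∧ sqNorm x = 32}.ncard = 196560 := ncard_norm32
        have hfinA : {x : GolayPt → ℤ | x ∈ leechLattice ∧ sqNorm x = 32}.Finite :=
          Set.finite_of_ncard_ne_zero (by rw [hA]; norm_num)
        exact hfinA.subset (fun y hy => ⟨hy.1, hy.2.1⟩)
  have hsum := double_count hk hT hT0
  rw [finsum_mem_eq_finite_toFinset_sum _ hfinN] at hsum
  rw [Finset.sum_congr rfl (fun x hx => hval x (by simpa using hx)), Finset.sum_ite, Finset.sum_const_zero, add_zero,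
    Finset.sum_const, smul_eq_mul, hmul] at hsum
  have h5 : (hfinN.toFinset.filter (fun x => x ∈ O)).card = T := by
    have h' : (hfinN.toFinset.filter (fun x => x ∈ O)).card * c = T * c := by
      rw [mul_comm T c]
      exact hsum
    exact Nat.eq_of_mul_eq_mul_right (Nat.pos_of_ne_zero hc0) h'
  have h6 : hfinN.toFinset.filter (fun x => x ∈ O) = hfinN.toFinset := by
    apply Finset.eq_of_subset_of_card_le (Finset.filter_subset _ _)
    rw [h5, ← Set.ncard_eq_toFinset_card _ hfinN, hT]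
  have hum : u.1 ∈ hfinN.toFinset := by
    simp only [Set.Finite.mem_toFinset]
    exact ⟨u.2, hu⟩
  rw [← h6, Finset.mem_filter] at hum
  obtain ⟨h7, g, hg⟩ := hum.2
  exact ⟨g, hg⟩

end count

end Cfsg.Agent.Lib.LeechP
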