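/-
Transitivity on the vectors of sum of squares 48 and 64.
-/
import Cfsg.Agent.Lib.LeechP.Sums
import Cfsg.Agent.Lib.LeechP.SumCnt

set_option autoImplicit false

namespace Cfsg.Agent.Lib.LeechP

open Cfsg Cfsg.Agent.Lib.Golay Cfsg.Agent.Lib.Golay.Leech Cfsg.Agent.Lib.LeechX Cfsg.Agent.Lib.M24

theorem su48_lat : Val su48 ∧ dec su48 ∈ leechLattice := lat_of_latOK (by decide +kernel)
theorem su64_lat : Val su64 ∧ dec su64 ∈ leechLattice := lat_of_latOK (by decide +kernel)

/-- The second summand. -/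
def w48 : ↥leechLattice := ⟨dec c2Sb, c2Sb_lat.2⟩

/-- The second summand. -/
def w64 : ↥leechLattice := ⟨dec c2Sc, c2Sc_lat.2⟩

theorem w48_norm : sqNorm w48.1 = 32 := by
  show sqNorm (dec c2Sb) = 32
  decide +kernel

theorem w64_norm : sqNorm w64.1 = 32 := by
  show sqNorm (dec c2Sc) = 32
  decide +kernel

theorem w48_dot : dotInt v0L.1 w48.1 = -8 := by
  show dotInt (dec a0S) (dec c2Sb) = -8
  decide +kernel

theorem w64_dot : dotInt v0L.1 w64.1 = 0 := by
  show dotInt (dec a0S) (dec c2Sc) = 0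
  decide +kernel

theorem su48_eq : (v0L + w48).1 = dec su48 := by
  funext p
  show dec a0S p + dec c2Sb p = dec su48 p
  revert p
  decide +kernel

theorem su64_eq : (v0L + w64).1 = dec su64 := by
  funext p
  show dec a0S p + dec c2Sc p = dec su64 p
  revert p
  decide +kernel

theorem su64_single : dec su64 = Pi.single (pt 0) 8 := by
  funext p
  revert p
  decide +kernel

theorem su48R_eq : revP su48 = su48R := by decide +kernel
theorem su48F_eq : coefP onesP su48 = su48F := by decide +kernel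
theorem su64R_eq : revP su64 = su64R := by decide +kernel
theorem su64F_eq : coefP onesP su64 = su64F := by decide +kernel

theorem dotSet48 : (dotSet (v0L + w48).1 (32 + (-8))).ncard = 552 := by
  have h := ncard_dot su48_lat.1 su48R_eq su48F_eq su48_cnt
  rw [su48_eq]
  have e : ((24 : ℕ) : ℤ) - ((0 : ℕ) : ℤ) = 32 + (-8) := by norm_num
  rw [e] at h
  exact h

theorem dotSet64 : (dotSet (v0L + w64).1 (32 + 0)).ncard = 46 := by
  have h := ncard_dot su64_lat.1 su64R_eq su64F_eq su64_cnt
  rw [su64_eq]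
  have e : ((32 : ℕ) : ℤ) - ((0 : ℕ) : ℤ) = 32 + 0 := by norm_num
  rw [e] at h
  exact h

/-- All vectors of sum of squares 48 are in one orbit. -/
theorem n48_all (u : ↥leechLattice) (hu : sqNorm u.1 = 48) : ∃ g : ↥Co0, g • (v0L + w48) = u := by
  refine sums_all (d := -8) (k := 47104) (T := 16773120) (c := 552) (fun v hv hvn => (census v hv hvn).2.1)
    ?_ (by norm_num) (by norm_num) (by norm_num) pair_trans_b v0L w48 v0L_norm w48_norm w48_dot dotSet48 u ?_
  · have e : (64 + 2 * (-8) : ℤ) = 48 := by norm_num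
    rw [e]
    exact ncard_norm48
  · rw [hu]
    norm_num

/-- All vectors of sum of squares 64 are in one orbit. -/
theorem n64_all (u : ↥leechLattice) (hu : sqNorm u.1 = 64) : ∃ g : ↥Co0, g • (v0L + w64) = u := by
  refine sums_all (d := 0) (k := 93150) (T := 398034000) (c := 46) (fun v hv hvn => (census v hv hvn).2.2)
    ?_ (by norm_num) (by norm_num) (by norm_num) pair_trans_c v0L w64 v0L_norm w64_norm w64_dot dotSet64 u ?_
  · have e : (64 + 2 * 0 : ℤ) = 64 := by norm_num
    rw [e]
    exact ncard_norm64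
  · rw [hu]
    norm_num

/-- Transitivity on the vectors of sum of squares 48. -/
theorem trans48 (v w : ↥leechLattice) (hv : sqNorm v.1 = 48) (hw : sqNorm w.1 = 48) : ∃ g : ↥Co0, g • v = w := by
  obtain ⟨a, ha⟩ := n48_all v hv
  obtain ⟨b, hb⟩ := n48_all w hw
  refine ⟨b * a⁻¹, ?_⟩
  rw [← ha, mul_smul, inv_smul_smul, hb]

/-- Transitivity on the vectors of sum of squares 64. -/
theorem trans64 (v w : ↥leechLattice) (hv : sqNorm v.1 = 64) (hw : sqNorm w.1 = 64) : ∃ g : ↥Co0, g • v = w := by
  obtain ⟨a, ha⟩ := n64_all v hv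
  obtain ⟨b, hb⟩ := n64_all w hw
  refine ⟨b * a⁻¹, ?_⟩
  rw [← ha, mul_smul, inv_smul_smul, hb]

/-- Sets of lattice elements and their images. -/
theorem ncard_coe (S : Set ↥leechLattice) : S.ncard = (Subtype.val '' S).ncard :=
  (Set.ncard_image_of_injective _ Subtype.val_injective).symm

/-- The number of summands. -/
theorem summands48 (u : ↥leechLattice) (hu : sqNorm u.1 = 48) : (dotSet u.1 24).ncard = 552 := by
  obtain ⟨g, hg⟩ := n48_all u hu
  rw [← hg, ← ncard_dotSet_smul]
  have := dotSet48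
  rw [show (32 + (-8) : ℤ) = 24 by norm_num] at this
  exact this

theorem sub_norm_iff {u v : GolayPt → ℤ} (hu : sqNorm u = 48) (hv : sqNorm v = 32) :
    sqNorm (u - v) = 32 ↔ dotInt u v = 24 := by
  rw [sqNorm_sub, hu, hv]
  constructor <;> intro h <;> linarith

end Cfsg.Agent.Lib.LeechP
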