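/-
The order of the automorphism group of the rank-24 lattice and its centre.
-/
import Cfsg.Agent.Lib.LeechP.Norm48
import Cfsg.Agent.Lib.LeechP.Cross
import Cfsg.Agent.Lib.LeechP.Gen
import Cfsg.Agent.Lib.LeechP.Mod2
import Cfsg.Agent.Lib.LeechX.QuadForm
import Cfsg.Agent.Lib.M24.Flags

set_option autoImplicit false

namespace Cfsg.Agent.Lib.LeechP

open Cfsg Cfsg.Agent.Lib.Golay Cfsg.Agent.Lib.Golay.Leech Cfsg.Agent.Lib.LeechX Cfsg.Agent.Lib.M24

/-- The base frame vector. -/
abbrev e0 : ↥leechLattice := eV (pt 0)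

theorem e0_eq : v0L + w64 = e0 := Subtype.ext (su64_eq.trans su64_single)

theorem e0_norm : sqNorm e0.1 = 64 := by
  show sqNorm (Pi.single (pt 0) 8 : GolayPt → ℤ) = 64
  decide +kernel

/-- All vectors of sum of squares 64 are images of the base frame vector. -/
theorem e0_all (u : ↥leechLattice) (hu : sqNorm u.1 = 64) : ∃ g : ↥Co0, g • e0 = u := by
  rw [← e0_eq]
  exact n64_all u hu

theorem stdCross_ncard : stdCross.ncard = 48 := by
  classical
  let F : GolayPt × Bool → (GolayPt → ℤ) := fun a => Pi.single a.1 (if a.2 then 8 else -8)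
  have hF : Function.Injective F := by
    rintro ⟨i, a⟩ ⟨j, b⟩ h
    have h1 := congrFun h i
    simp only [F, Pi.single_eq_same] at h1
    by_cases hij : i = j
    · subst hij
      rw [Pi.single_eq_same] at h1
      cases a <;> cases b <;> first | rfl | (norm_num at h1)
    · rw [Pi.single_eq_of_ne hij] at h1
      cases a <;> norm_num at h1
  have hS : stdCross = F '' Set.univ := by
    ext y
    constructor
    · rintro ⟨i, s, hs, rfl⟩
      rcases hs with rfl | rfl
      · exact ⟨(i, true), trivial, rfl⟩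
      · exact ⟨(i, false), trivial, rfl⟩
    · rintro ⟨⟨i, b⟩, -, rfl⟩
      refine ⟨i, _, ?_, rfl⟩
      cases b <;> simp
  rw [hS, Set.ncard_image_of_injective _ hF, Set.ncard_univ, Nat.card_eq_fintype_card, Fintype.card_prod]
  rfl

theorem half_mem_a : ∀ i : GolayPt, (Pi.single (pt 0) 4 - Pi.single i 4 : GolayPt → ℤ) ∈ leechLattice := by
  intro i
  apply latB_sound
  revert i
  decide +kernel

theorem half_mem_b : ∀ i : GolayPt, (Pi.single (pt 0) 4 + Pi.single i 4 : GolayPt → ℤ) ∈ leechLattice := by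
  intro i
  apply latB_sound
  revert i
  decide +kernel

theorem stdCross_sub : stdCross ⊆ cross e0.1 := by
  rintro y ⟨i, s, hs, rfl⟩
  refine ⟨?_, ?_, ?_⟩
  · rcases hs with rfl | rfl
    · exact single_eight_mem i
    · have := leechLattice.neg_mem (single_eight_mem i)
      have e : -(Pi.single i 8 : GolayPt → ℤ) = Pi.single i (-8) := by
        funext j
        by_cases h : j = i
        · subst h; simp
        · simp [Pi.single_eq_of_ne h]
      rwa [e] at this
  · have e1 : sqNorm e0.1 = 64 := e0_norm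
    rw [e1]
    have : ∀ s : ℤ, (s = 8 ∨ s = -8) → ∀ i : GolayPt, sqNorm (Pi.single i s : GolayPt → ℤ) = s * s := by
      intro s _ i
      classical
      simp only [sqNorm]
      rw [Finset.sum_eq_single i]
      · simp [sq]
      · intro b _ hb
        simp [Pi.single_eq_of_ne hb]
      · simp
    rw [this s hs i]
    rcases hs with rfl | rfl <;> norm_num
  · rcases hs with rfl | rfl
    · refine ⟨_, half_mem_a i, ?_⟩
      funext j
      show (Pi.single (pt 0) 8 : GolayPt → ℤ) j - (Pi.single i 8 : GolayPt → ℤ) j = 2 • ((Pi.single (pt 0) 4 : GolayPt → ℤ) j - (Pi.single i 4 : GolayPt → ℤ) j)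
      simp only [Pi.single_apply]
      split_ifs <;> norm_num
    · refine ⟨_, half_mem_b i, ?_⟩
      funext j
      show (Pi.single (pt 0) 8 : GolayPt → ℤ) j - (Pi.single i (-8) : GolayPt → ℤ) j = 2 • ((Pi.single (pt 0) 4 : GolayPt → ℤ) j + (Pi.single i 4 : GolayPt → ℤ) j)
      simp only [Pi.single_apply]
      split_ifs <;> norm_num

theorem cross_e0 : cross e0.1 = stdCross := by
  have h := ncard_cross e0.2 e0_norm
  have hf : (cross e0.1).Finite := Set.finite_of_ncard_ne_zero (by rw [h]; norm_num)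
  exact (Set.eq_of_subset_of_ncard_le stdCross_sub (by rw [h, stdCross_ncard]) hf).symm

/-- An element fixing the base frame vector preserves the standard frame. -/
theorem stab_preserves {g : ↥Co0} (hg : g • e0 = e0) (v : ↥leechLattice) (hv : v.1 ∈ stdCross) :
    (g.1 v).1 ∈ stdCross := by
  rw [← cross_e0] at hv ⊢
  obtain ⟨h1, h2, z, hz, h3⟩ := hv
  refine ⟨(g.1 v).2, ?_, g • (⟨z, hz⟩ : ↥leechLattice) |>.1, (g • (⟨z, hz⟩ : ↥leechLattice)).2, ?_⟩
  · rw [← h2]
    exact norm_smul g v
  · have e : e0 - v = (⟨z, hz⟩ : ↥leechLattice) + ⟨z, hz⟩ := by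
      apply Subtype.ext
      show e0.1 - v.1 = z + z
      rw [h3, two_nsmul]
    have e2 := congrArg (fun x => g • x) e
    simp only [smul_sub', smul_add', hg] at e2
    have e3 := congrArg Subtype.val e2
    show e0.1 - (g • v).1 = _
    rw [two_nsmul]
    exact e3

/-- The frame preservers. -/
abbrev FrameP : Type := {g : ↥Co0 // ∀ v : ↥leechLattice, v.1 ∈ stdCross → (g.1 v).1 ∈ stdCross}

theorem frame_neg : ∀ v : ↥leechLattice, v.1 ∈ stdCross → (negAut.1 v).1 ∈ stdCross := by
  rintro v ⟨i, s, hs, hv⟩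
  refine ⟨i, -s, ?_, ?_⟩
  · rcases hs with rfl | rfl <;> simp
  · rw [negAut_apply]
    show -v.1 = _
    rw [hv]
    funext j
    by_cases h : j = i
    · subst h; simp
    · simp [Pi.single_eq_of_ne h]

/-- Some frame preserver carries the base vector to any vector of the frame. -/
theorem frame_trans (t : ↥leechLattice) (ht : t.1 ∈ stdCross) :
    ∃ h : ↥Co0, (∀ v : ↥leechLattice, v.1 ∈ stdCross → (h.1 v).1 ∈ stdCross) ∧ h • e0 = t := by
  classical
  obtain ⟨j, s, hs, hj⟩ := ht
  obtain ⟨σ, hσ, h0⟩ : ∃ σ ∈ M24, σ (pt 0) = j := by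
    obtain ⟨q, hq⟩ : ∃ q : GolayPt, q ≠ pt 1 ∧ q ≠ j := by
      by_contra hc
      push Not at hc
      have : ∀ q : GolayPt, q = pt 1 ∨ q = j := fun q => by
        by_cases h : q = pt 1
        · exact Or.inl h
        · exact Or.inr (hc q h)
      have hcard : Fintype.card GolayPt ≤ ({pt 1, j} : Finset GolayPt).card := by
        rw [← Finset.card_univ]
        apply Finset.card_le_card
        intro q _
        rcases this q with h | h <;> simp [h]
      have h2 : ({pt 1, j} : Finset GolayPt).card ≤ 2 := Finset.card_le_two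
      have h3 : Fintype.card GolayPt = 24 := rfl
      omega
    obtain ⟨g, hg, h1, -⟩ := exists_two_points (p := pt 0) (q := pt 1) (p' := j) (q' := q) (by decide) (Ne.symm hq.2)
    exact ⟨g, hg, h1⟩
  have hc0 : (∅ : Finset GolayPt) ∈ supports (golayCode : Set (GolayPt → ZMod 2)) := by
    refine ⟨0, golayCode.zero_mem, ?_⟩
    ext i
    simp [support₂]
  have hP : ((Phi σ hσ ∅ hc0).1 e0).1 = Pi.single j 8 := by
    rw [Phi_apply]
    show signedPerm σ ∅ (Pi.single (pt 0) 8) = _
    rw [signedPerm_single, h0]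
    simp
  rcases hs with rfl | rfl
  · refine ⟨Phi σ hσ ∅ hc0, fun v hv => Phi_std _ _ _ _ v hv, ?_⟩
    apply Subtype.ext
    rw [hj]
    exact hP
  · refine ⟨negAut * Phi σ hσ ∅ hc0, fun v hv => ?_, ?_⟩
    · exact frame_neg _ (Phi_std _ _ _ _ v hv)
    · apply Subtype.ext
      rw [hj]
      show -((Phi σ hσ ∅ hc0).1 e0).1 = _
      rw [hP]
      funext i
      by_cases h : i = j
      · subst h; simp
      · simp [Pi.single_eq_of_ne h]

/-- The stabiliser of the base vector has the order forced by the frame preservers. -/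
theorem card_stab_e0 : Nat.card (MulAction.stabilizer ↥Co0 e0) = 20891566080 := by
  classical
  choose h hh1 hh2 using fun t : {t : ↥leechLattice // t.1 ∈ stdCross} => frame_trans t.1 t.2
  let F : ↥(MulAction.stabilizer ↥Co0 e0) × {t : ↥leechLattice // t.1 ∈ stdCross} → FrameP := fun a =>
    ⟨h a.2 * a.1.1, fun v hv => hh1 a.2 _ (stab_preserves a.1.2 v hv)⟩
  have hF : Function.Bijective F := by
    constructor
    · rintro ⟨a, t⟩ ⟨b, t'⟩ e
      have e1 : h t * a.1 = h t' * b.1 := congrArg Subtype.val e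
      have e2 := congrArg (fun x : ↥Co0 => x • e0) e1
      simp only [mul_smul] at e2
      have ha : a.1 • e0 = e0 := a.2
      have hb : b.1 • e0 = e0 := b.2
      rw [ha, hb, hh2, hh2] at e2
      have e3 : t = t' := Subtype.ext e2
      subst e3
      have e4 : a.1 = b.1 := mul_left_cancel e1
      rw [Subtype.ext e4]
    · rintro ⟨g, hg⟩
      let t : {t : ↥leechLattice // t.1 ∈ stdCross} := ⟨g • e0, hg e0 ⟨pt 0, 8, Or.inl rfl, rfl⟩⟩
      have hs : (h t)⁻¹ * g ∈ MulAction.stabilizer ↥Co0 e0 := by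
        rw [MulAction.mem_stabilizer_iff, mul_smul, inv_smul_eq_iff, hh2]
      refine ⟨(⟨_, hs⟩, t), ?_⟩
      apply Subtype.ext
      show h t * ((h t)⁻¹ * g) = g
      group
  have h1 := Nat.card_congr (Equiv.ofBijective F hF)
  rw [Nat.card_prod, card_stab] at h1
  have h2 : Nat.card {t : ↥leechLattice // t.1 ∈ stdCross} = 48 := by
    show Nat.card ↥{t : ↥leechLattice | t.1 ∈ stdCross} = 48
    rw [Nat.card_coe_set_eq, ncard_coe, ← stdCross_ncard]
    congr 1
    ext x
    constructor
    · rintro ⟨t, ht, rfl⟩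
      exact ht
    · intro hx
      exact ⟨⟨x, (stdCross_sub hx).1⟩, hx, rfl⟩
  rw [h2] at h1
  omega

/-- The order of the automorphism group. -/
theorem card_Co0 : Nat.card ↥Co0 = 8315553613086720000 := by
  have h1 := Subgroup.card_mul_index (MulAction.stabilizer ↥Co0 e0)
  rw [card_stab_e0, MulAction.index_stabilizer] at h1
  have h2 : (MulAction.orbit ↥Co0 e0).ncard = 398034000 := by
    rw [ncard_coe]
    rw [← ncard_norm64]
    congr 1
    ext x
    constructor
    · rintro ⟨_, ⟨g, rfl⟩, rfl⟩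
      exact ⟨(g • e0).2, (norm_smul g e0).trans e0_norm⟩
    · rintro ⟨h3, h4⟩
      obtain ⟨g, hg⟩ := e0_all ⟨x, h3⟩ h4
      exact ⟨⟨x, h3⟩, ⟨g, hg⟩, rfl⟩
  rw [h2] at h1
  rw [← h1]

/-- An automorphism fixing the minimal vectors is the identity. -/
theorem eq_one_of_fix (g : ↥Co0) (h : ∀ x : ↥leechLattice, sqNorm x.1 = 32 → g • x = x) : g = 1 := by
  have key : ∀ y (hy : y ∈ AddSubgroup.closure {x : GolayPt → ℤ | x ∈ leechLattice ∧ sqNorm x = 32}),
      ∃ hy' : y ∈ leechLattice, g • (⟨y, hy'⟩ : ↥leechLattice) = ⟨y, hy'⟩ := by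
    intro y hy
    induction hy using AddSubgroup.closure_induction with
    | mem x hx => exact ⟨hx.1, h _ hx.2⟩
    | zero =>
      refine ⟨leechLattice.zero_mem, ?_⟩
      have := smul_sub' g 0 0
      simp only [sub_self] at this
      exact this
    | add a b _ _ ha hb =>
      obtain ⟨h1, h2⟩ := ha
      obtain ⟨h3, h4⟩ := hb
      refine ⟨leechLattice.add_mem h1 h3, ?_⟩
      have := smul_add' g ⟨a, h1⟩ ⟨b, h3⟩
      rw [h2, h4] at this
      exact this
    | neg a _ ha =>
      obtain ⟨h1, h2⟩ := ha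
      refine ⟨leechLattice.neg_mem h1, ?_⟩
      have := smul_neg' g ⟨a, h1⟩
      rw [h2] at this
      exact this
  apply co0_ext
  intro v i
  obtain ⟨_, h2⟩ := key v.1 (by rw [closure_min_eq]; exact v.2)
  have := congrArg (fun x : ↥leechLattice => x.1 i) h2
  exact this

/-- A vector fixed by the stabiliser of a minimal vector is a multiple of it. -/
theorem no_fixed_aux (v w : ↥leechLattice) (hv : sqNorm v.1 = 32) (hw : sqNorm w.1 = 32)
    (hfix : ∀ h : ↥Co0, h • v = v → h • w = w) {d : ℤ} (hd : d = -16 ∨ d = -8 ∨ d = 0) (hdot : dotInt v.1 w.1 = d) : False := by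
  have hc := census v.1 v.2 hv
  have key : dotSet v.1 d ⊆ {w.1} := by
    rintro x ⟨h1, h2, h3⟩
    have hx : ∃ g : ↥Co0, g • v = v ∧ g • w = ⟨x, h1⟩ := by
      rcases hd with rfl | rfl | rfl
      · exact co2_trans_a v w ⟨x, h1⟩ hv hw h2 hdot h3
      · exact co2_trans_b v w ⟨x, h1⟩ hv hw h2 hdot h3
      · exact co2_trans_c v w ⟨x, h1⟩ hv hw h2 hdot h3
    obtain ⟨g, hg1, hg2⟩ := hx
    rw [hfix g hg1] at hg2
    rw [Set.mem_singleton_iff]
    exact (congrArg Subtype.val hg2).symm
  have h1 := Set.ncard_le_ncard key (Set.finite_singleton _)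
  rw [Set.ncard_singleton] at h1
  rcases hd with rfl | rfl | rfl
  · rw [hc.1] at h1
    omega
  · rw [hc.2.1] at h1
    omega
  · rw [hc.2.2] at h1
    omega

/-- A minimal vector fixed by the stabiliser of a minimal vector is that vector or its negative. -/
theorem fixed_eq (v w : ↥leechLattice) (hv : sqNorm v.1 = 32) (hw : sqNorm w.1 = 32)
    (hfix : ∀ h : ↥Co0, h • v = v → h • w = w) : w = v ∨ w = -v := by
  by_contra hne
  push Not at hne
  have h1 : v.1 - w.1 ≠ 0 := fun e => hne.1 (Subtype.ext (sub_eq_zero.1 e).symm)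
  have h2 : v.1 + w.1 ≠ 0 := fun e => hne.2 (Subtype.ext (eq_neg_of_add_eq_zero_right e))
  have h3 := norm_ge' (leechLattice.sub_mem v.2 w.2) h1
  have h4 := norm_ge' (leechLattice.add_mem v.2 w.2) h2
  rw [sqNorm_sub, hv, hw] at h3
  rw [sqNorm_add, hv, hw] at h4
  obtain ⟨k, hk⟩ := eight_dvd_dot v w
  have hk1 : k = -2 ∨ k = -1 ∨ k = 0 ∨ k = 1 ∨ k = 2 := by omega
  have hneg : ∀ h : ↥Co0, h • v = v → h • (-w) = -w := fun h hh => by
    rw [smul_neg', hfix h hh]
  have hnorm : sqNorm (-w).1 = 32 := by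
    show sqNorm (-w.1) = 32
    rw [sqNorm_neg, hw]
  have hdn : dotInt v.1 (-w).1 = - dotInt v.1 w.1 := by
    show dotInt v.1 (-w.1) = _
    simp only [dotInt, Pi.neg_apply, mul_neg, Finset.sum_neg_distrib]
  rcases hk1 with rfl | rfl | rfl | rfl | rfl
  · exact no_fixed_aux v w hv hw hfix (d := -16) (Or.inl rfl) (by rw [hk]; norm_num)
  · exact no_fixed_aux v w hv hw hfix (d := -8) (Or.inr (Or.inl rfl)) (by rw [hk]; norm_num)
  · exact no_fixed_aux v w hv hw hfix (d := 0) (Or.inr (Or.inr rfl)) (by rw [hk]; norm_num)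
  · exact no_fixed_aux v (-w) hv hnorm hneg (d := -8) (Or.inr (Or.inl rfl)) (by rw [hdn, hk]; norm_num)
  · exact no_fixed_aux v (-w) hv hnorm hneg (d := -16) (Or.inl rfl) (by rw [hdn, hk]; norm_num)

/-- The centre. -/
theorem center_cases (z : ↥Co0) (hz : z ∈ Subgroup.center ↥Co0) : z = 1 ∨ z = negAut := by
  have hcomm : ∀ g : ↥Co0, g * z = z * g := fun g => Subgroup.mem_center_iff.1 hz g
  have hfix : ∀ h : ↥Co0, h • v0L = v0L → h • (z • v0L) = z • v0L := fun h hh => by
    rw [← mul_smul, hcomm, mul_smul, hh]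
  rcases fixed_eq v0L (z • v0L) v0L_norm ((norm_smul z v0L).trans v0L_norm) hfix with h | h
  · left
    apply eq_one_of_fix
    intro x hx
    obtain ⟨g, rfl⟩ := min_trans v0L x v0L_norm hx
    rw [← mul_smul, ← hcomm, mul_smul, h]
  · right
    have : negAut * z = 1 := by
      apply eq_one_of_fix
      intro x hx
      obtain ⟨g, rfl⟩ := min_trans v0L x v0L_norm hx
      rw [mul_smul, ← mul_smul z, ← hcomm, mul_smul, h, smul_neg']
      apply Subtype.ext
      show - (-(g • v0L).1) = _
      simp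
    have h2 := negAut_sq
    calc z = (negAut * negAut) * z := by rw [h2, one_mul]
      _ = negAut * (negAut * z) := mul_assoc _ _ _
      _ = negAut := by rw [this, mul_one]

/-- The centre has two elements. -/
theorem card_center : Nat.card (Subgroup.center ↥Co0) = 2 := by
  rw [Nat.card_eq_two_iff]
  refine ⟨1, ⟨negAut, Subgroup.mem_center_iff.2 fun g => negAut_comm g⟩, ?_, ?_⟩
  · intro h
    exact negAut_ne_one (congrArg Subtype.val h).symm
  · ext ⟨z, hz⟩
    simp only [Set.mem_insert_iff, Set.mem_singleton_iff, Set.mem_univ, iff_true]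
    rcases center_cases z hz with h | h
    · left
      exact Subtype.ext h
    · right
      exact Subtype.ext h

end Cfsg.Agent.Lib.LeechP
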