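/-
Configurations of lattice vectors: tests of inner products, counts and orbits from searches.
-/
import Cfsg.Agent.Lib.LeechP.Order

set_option autoImplicit false

namespace Cfsg.Agent.Lib.LeechP

open Cfsg Cfsg.Agent.Lib.Golay Cfsg.Agent.Lib.Golay.Leech Cfsg.Agent.Lib.LeechX Cfsg.Agent.Lib.M24

/-- The data of a base vector. -/
structure FV (a ra fa : ℕ) : Prop where
  val : Val a
  mem : dec a ∈ leechLattice
  rev : revP a = ra
  sum : coefP onesP a = fa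

/-- A test meets a property. -/
def Sp (p : ℕ → Bool) (Q : (GolayPt → ℤ) → Prop) : Prop := ∀ n, Val n → (p (saltN n) = true ↔ Q (dec n))

theorem sp_tD {a ra fa : ℕ} (h : FV a ra fa) (dp dn : ℕ) {d : ℤ} (hd : (dp : ℤ) - dn = d) :
    Sp (tD ra fa dp dn) (fun x => dotInt (dec a) x = d) := by
  intro n hn
  rw [tD_iff h.val h.rev h.sum hn, hd]

/-- The conjunction of tests. -/
def tA (p q : ℕ → Bool) (m : ℕ) : Bool := p m && q m

theorem sp_tA {p q : ℕ → Bool} {P Q : (GolayPt → ℤ) → Prop} (h1 : Sp p P) (h2 : Sp q Q) :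
    Sp (tA p q) (fun x => P x ∧ Q x) := by
  intro n hn
  simp only [tA, Bool.and_eq_true]
  rw [h1 n hn, h2 n hn]

/-- The vectors meeting a property. -/
def QS (Q : (GolayPt → ℤ) → Prop) : Set ↥leechLattice := {x | sqNorm x.1 = 32 ∧ Q x.1}

theorem ncard_QS {p : ℕ → Bool} {Q : (GolayPt → ℤ) → Prop} (h : Sp p Q) {N : ℕ} (hc : cntMin p = N) :
    (QS Q).ncard = N := by
  rw [← hc, ← ncard_min (fun n hn => h n (val_minL hn)), ncard_coe]
  congr 1
  ext x
  constructor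
  · rintro ⟨t, ⟨h1, h2⟩, rfl⟩
    exact ⟨t.2, h1, h2⟩
  · rintro ⟨h1, h2, h3⟩
    exact ⟨⟨x, h1⟩, ⟨h2, h3⟩, rfl⟩

/-- Reaching all vectors of a property. -/
theorem reach_QS {L : List ℕ} {gens : List Mv} {nf : List (ℕ × ℕ)} (hS : sysChk L gens nf = true)
    {x0 : ↥leechLattice} (hx0 : sqNorm x0.1 ≤ 256) {fuel n0 : ℕ} (hn0 : Val n0) (hd0 : dec n0 = x0.1)
    {T : BT} (hT : T = orbitT (actMv nf) gens fuel (saltN n0))
    {t : ℕ → Bool} {Q : (GolayPt → ℤ) → Prop} (hsp : Sp t Q) (hc : cntMin (scanF t T nf) = 0)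
    {x : ↥leechLattice} (hx : x ∈ QS Q) : ∃ g ∈ Fx L, g • x0 = x := by
  obtain ⟨g, hg, he⟩ := orbit_of_scan hS hx0 hn0 hd0 hT hc x.2 hx.1
    (fun n e hv => (hsp n hv).2 (by rw [e]; exact hx.2))
  exact ⟨g, hg, Subtype.ext he⟩

/-- Two vectors of a property are related. -/
theorem trans_QS {L : List ℕ} {x0 : ↥leechLattice} {Q : (GolayPt → ℤ) → Prop}
    (h : ∀ x ∈ QS Q, ∃ g ∈ Fx L, g • x0 = x) {x y : ↥leechLattice} (hx : x ∈ QS Q) (hy : y ∈ QS Q) :
    ∃ g ∈ Fx L, g • x = y := by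
  obtain ⟨a, ha, rfl⟩ := h x hx
  obtain ⟨b, hb, rfl⟩ := h y hy
  refine ⟨b * a⁻¹, (Fx L).mul_mem hb ((Fx L).inv_mem ha), ?_⟩
  rw [mul_smul, inv_smul_smul]

/-- The base lattice vector. -/
def bv {a ra fa : ℕ} (h : FV a ra fa) : ↥leechLattice := ⟨dec a, h.mem⟩

theorem bv_coe {a ra fa : ℕ} (h : FV a ra fa) : (bv h).1 = dec a := rfl

theorem fx_bv {L : List ℕ} {g : ↥Co0} (hg : g ∈ Fx L) {a ra fa : ℕ} (h : FV a ra fa) (hm : a ∈ L) : g • bv h = bv h :=
  hg a hm h.mem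

/-- Conjugates fix the preimages. -/
theorem conj_fix {a g : ↥Co0} {p p0 : ↥leechLattice} (ha : a • p = p0) (hg : g • p0 = p0) : (a⁻¹ * g * a) • p = p := by
  simp only [mul_smul]
  rw [ha, hg, ← ha, inv_smul_smul]

/-- Conjugates move the preimages. -/
theorem conj_move {a g : ↥Co0} {p q p0 q0 : ↥leechLattice} (ha : a • p = p0) (hb : a • q = q0) (hg : g • p0 = q0) :
    (a⁻¹ * g * a) • p = q := by
  simp only [mul_smul]
  rw [ha, hg, ← hb, inv_smul_smul]

/-- Automorphisms carry vector sets to vector sets of the same size. -/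
theorem ncard_smul (a : ↥Co0) {S T : Set ↥leechLattice} (h : ∀ x, x ∈ S ↔ a • x ∈ T) : S.ncard = T.ncard := by
  apply Set.ncard_congr (fun x _ => a • x)
  · intro x hx
    exact (h x).1 hx
  · intro x y _ _ e
    exact smul_left_cancel a e
  · intro y hy
    refine ⟨a⁻¹ • y, (h _).2 (by rwa [smul_inv_smul]), by simp⟩

/-- The inner product and automorphisms, on the coercions. -/
theorem dot_smul_iff (a : ↥Co0) {v x : ↥leechLattice} {v0 : ↥leechLattice} (hv : a • v = v0) (d : ℤ) :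
    dotInt v.1 x.1 = d ↔ dotInt v0.1 (a • x).1 = d := by
  rw [← hv, dot_smul]

theorem norm_smul_iff (a : ↥Co0) (x : ↥leechLattice) (d : ℤ) : sqNorm x.1 = d ↔ sqNorm (a • x).1 = d := by
  rw [norm_smul]

end Cfsg.Agent.Lib.LeechP
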