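/-
Sets of minimal vectors with given inner products, and transport by automorphisms.
-/
import Cfsg.Agent.Lib.LeechP.Fam

set_option autoImplicit false

namespace Cfsg.Agent.Lib.LeechP

open Cfsg Cfsg.Agent.Lib.Golay Cfsg.Agent.Lib.Golay.Leech Cfsg.Agent.Lib.LeechX Cfsg.Agent.Lib.M24

/-- Minimal vectors with a given inner product with a vector. -/
def S1 (v : ↥leechLattice) (d : ℤ) : Set ↥leechLattice := QS (fun x => dotInt v.1 x = d)

/-- Minimal vectors with given inner products with two vectors. -/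
def S2 (v : ↥leechLattice) (d : ℤ) (w : ↥leechLattice) (e : ℤ) : Set ↥leechLattice :=
  QS (fun x => dotInt v.1 x = d ∧ dotInt w.1 x = e)

/-- Minimal vectors with given inner products with three vectors. -/
def S3 (v : ↥leechLattice) (d : ℤ) (w : ↥leechLattice) (e : ℤ) (y : ↥leechLattice) (f : ℤ) : Set ↥leechLattice :=
  QS (fun x => dotInt v.1 x = d ∧ dotInt w.1 x = e ∧ dotInt y.1 x = f)

theorem mem_S1 {v x : ↥leechLattice} {d : ℤ} : x ∈ S1 v d ↔ sqNorm x.1 = 32 ∧ dotInt v.1 x.1 = d := Iff.rfl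

theorem mem_S2 {v w x : ↥leechLattice} {d e : ℤ} :
    x ∈ S2 v d w e ↔ sqNorm x.1 = 32 ∧ dotInt v.1 x.1 = d ∧ dotInt w.1 x.1 = e := Iff.rfl

theorem mem_S3 {v w y x : ↥leechLattice} {d e f : ℤ} :
    x ∈ S3 v d w e y f ↔ sqNorm x.1 = 32 ∧ dotInt v.1 x.1 = d ∧ dotInt w.1 x.1 = e ∧ dotInt y.1 x.1 = f := Iff.rfl

theorem S1_smul (a : ↥Co0) {v V : ↥leechLattice} (hv : a • v = V) (d : ℤ) (x : ↥leechLattice) :
    x ∈ S1 v d ↔ a • x ∈ S1 V d := by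
  rw [mem_S1, mem_S1, ← hv, norm_smul, dot_smul]

theorem S2_smul (a : ↥Co0) {v w V W : ↥leechLattice} (hv : a • v = V) (hw : a • w = W) (d e : ℤ) (x : ↥leechLattice) :
    x ∈ S2 v d w e ↔ a • x ∈ S2 V d W e := by
  rw [mem_S2, mem_S2, ← hv, ← hw, norm_smul, dot_smul, dot_smul]

theorem S3_smul (a : ↥Co0) {v w y V W Y : ↥leechLattice} (hv : a • v = V) (hw : a • w = W) (hy : a • y = Y) (d e f : ℤ)
    (x : ↥leechLattice) : x ∈ S3 v d w e y f ↔ a • x ∈ S3 V d W e Y f := by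
  rw [mem_S3, mem_S3, ← hv, ← hw, ← hy, norm_smul, dot_smul, dot_smul, dot_smul]

/-- Transport of transitivity, one fixed vector. -/
theorem tr1 {a : ↥Co0} {u U : ↥leechLattice} (ha : a • u = U) {S S' : Set ↥leechLattice} (hS : ∀ x, x ∈ S ↔ a • x ∈ S')
    (h : ∀ x ∈ S', ∀ y ∈ S', ∃ g : ↥Co0, g • U = U ∧ g • x = y) :
    ∀ x ∈ S, ∀ y ∈ S, ∃ g : ↥Co0, g • u = u ∧ g • x = y := by
  intro x hx y hy
  obtain ⟨g, h1, h2⟩ := h _ ((hS x).1 hx) _ ((hS y).1 hy)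
  exact ⟨a⁻¹ * g * a, conj_fix ha h1, conj_move rfl rfl h2⟩

/-- Transport of transitivity, two fixed vectors. -/
theorem tr2 {a : ↥Co0} {u v U V : ↥leechLattice} (ha : a • u = U) (hb : a • v = V) {S S' : Set ↥leechLattice}
    (hS : ∀ x, x ∈ S ↔ a • x ∈ S')
    (h : ∀ x ∈ S', ∀ y ∈ S', ∃ g : ↥Co0, g • U = U ∧ g • V = V ∧ g • x = y) :
    ∀ x ∈ S, ∀ y ∈ S, ∃ g : ↥Co0, g • u = u ∧ g • v = v ∧ g • x = y := by
  intro x hx y hy
  obtain ⟨g, h1, h2, h3⟩ := h _ ((hS x).1 hx) _ ((hS y).1 hy)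
  exact ⟨a⁻¹ * g * a, conj_fix ha h1, conj_fix hb h2, conj_move rfl rfl h3⟩

/-- Transport of transitivity, three fixed vectors. -/
theorem tr3 {a : ↥Co0} {u v w U V W : ↥leechLattice} (ha : a • u = U) (hb : a • v = V) (hc : a • w = W)
    {S S' : Set ↥leechLattice} (hS : ∀ x, x ∈ S ↔ a • x ∈ S')
    (h : ∀ x ∈ S', ∀ y ∈ S', ∃ g : ↥Co0, g • U = U ∧ g • V = V ∧ g • W = W ∧ g • x = y) :
    ∀ x ∈ S, ∀ y ∈ S, ∃ g : ↥Co0, g • u = u ∧ g • v = v ∧ g • w = w ∧ g • x = y := by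
  intro x hx y hy
  obtain ⟨g, h1, h2, h3, h4⟩ := h _ ((hS x).1 hx) _ ((hS y).1 hy)
  exact ⟨a⁻¹ * g * a, conj_fix ha h1, conj_fix hb h2, conj_fix hc h3, conj_move rfl rfl h4⟩

/-- An orbit identified by a transitivity statement. -/
theorem orbit_eq_of {H : Subgroup ↥Co0} {S : Set ↥leechLattice} {y : ↥leechLattice} (hy : y ∈ S)
    (h1 : ∀ h ∈ H, ∀ z ∈ S, h • z ∈ S) (h2 : ∀ z ∈ S, ∃ h ∈ H, h • y = z) : MulAction.orbit ↥H y = S := by
  ext z
  constructor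
  · rintro ⟨h, rfl⟩
    exact h1 h.1 h.2 y hy
  · intro hz
    obtain ⟨h, hh, e⟩ := h2 z hz
    exact ⟨⟨h, hh⟩, e⟩

theorem mem_stab_iff {g : ↥Co0} {v : ↥leechLattice} : g ∈ MulAction.stabilizer ↥Co0 v ↔ g • v = v := Iff.rfl

/-- Orbits under the fixers of two vectors. -/
theorem orbit2 {u v y : ↥leechLattice} {d e : ℤ} (hy : y ∈ S2 u d v e)
    (htr : ∀ x ∈ S2 u d v e, ∀ z ∈ S2 u d v e, ∃ g : ↥Co0, g • u = u ∧ g • v = v ∧ g • x = z) :
    MulAction.orbit ↥(MulAction.stabilizer ↥Co0 u ⊓ MulAction.stabilizer ↥Co0 v) y = S2 u d v e := by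
  apply orbit_eq_of hy
  · rintro h ⟨h1, h2⟩ z hz
    exact (S2_smul h h1 h2 d e z).1 hz
  · intro z hz
    obtain ⟨g, h1, h2, h3⟩ := htr y hy z hz
    exact ⟨g, ⟨h1, h2⟩, h3⟩

/-- Orbits under the fixers of three vectors. -/
theorem orbit3 {u v w y : ↥leechLattice} {d e f : ℤ} (hy : y ∈ S3 u d v e w f)
    (htr : ∀ x ∈ S3 u d v e w f, ∀ z ∈ S3 u d v e w f, ∃ g : ↥Co0, g • u = u ∧ g • v = v ∧ g • w = w ∧ g • x = z) :
    MulAction.orbit ↥(MulAction.stabilizer ↥Co0 u ⊓ MulAction.stabilizer ↥Co0 v ⊓ MulAction.stabilizer ↥Co0 w) y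
      = S3 u d v e w f := by
  apply orbit_eq_of hy
  · rintro h ⟨⟨h1, h2⟩, h3⟩ z hz
    exact (S3_smul h h1 h2 h3 d e f z).1 hz
  · intro z hz
    obtain ⟨g, h1, h2, h3, h4⟩ := htr y hy z hz
    exact ⟨g, ⟨⟨h1, h2⟩, h3⟩, h4⟩

/-- The negation of a test. -/
def tNot (p : ℕ → Bool) (m : ℕ) : Bool := !(p m)

theorem sp_tNot {p : ℕ → Bool} {P : (GolayPt → ℤ) → Prop} (h : Sp p P) : Sp (tNot p) (fun x => ¬ P x) := by
  intro n hn
  simp only [tNot, Bool.not_eq_true']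
  rw [← h n hn]
  simp

/-- A count of zero. -/
theorem none_QS {p : ℕ → Bool} {Q : (GolayPt → ℤ) → Prop} (h : Sp p Q) (hc : cntMin p = 0) (x : ↥leechLattice) :
    x ∉ QS Q := by
  rintro ⟨h1, h2⟩
  have := forall_min (Q := fun x => ¬ Q x) (p := p) (fun n hn hp hq => by
    have := (h n hn).2 hq
    rw [hp] at this
    exact Bool.false_ne_true this) hc x.2 h1
  exact this h2

/-- Vectors of inner product 32 with a minimal vector. -/
theorem eq_of_dot32 {x y : ↥leechLattice} (hx : sqNorm x.1 = 32) (hy : sqNorm y.1 = 32) (h : dotInt x.1 y.1 = 32) : x = y := by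
  have h1 : sqNorm (x.1 - y.1) = 0 := by
    rw [sqNorm_sub, hx, hy, h]
    norm_num
  by_contra hne
  have h0 : x.1 - y.1 ≠ 0 := fun e => hne (Subtype.ext (sub_eq_zero.1 e))
  have := norm_ge' (leechLattice.sub_mem x.2 y.2) h0
  omega

theorem dot_self32 {x : ↥leechLattice} (hx : sqNorm x.1 = 32) : dotInt x.1 x.1 = 32 := by
  rw [dot_self_eq, hx]

theorem dec_inj {a b : ℕ} (ha : Val a) (hb : Val b) (h : dec a = dec b) : a = b := by
  rw [← ha.eq_pk, ← hb.eq_pk]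
  apply pk_congr
  intro i hi
  have h1 := congrFun h (pt i)
  simp only [dec, idx_pt hi] at h1
  omega

end Cfsg.Agent.Lib.LeechP
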