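/-
Chains of fixers: lower bounds for the orders of subgroups containing given elements.
-/
import Cfsg.Agent.Lib.LeechP.FamGen

set_option autoImplicit false

namespace Cfsg.Agent.Lib.LeechP

open Cfsg Cfsg.Agent.Lib.Golay Cfsg.Agent.Lib.Golay.Leech Cfsg.Agent.Lib.LeechX Cfsg.Agent.Lib.M24 MulAction

instance finite_Co0 : Finite ↥Co0 := Nat.finite_of_card_ne_zero (by rw [card_Co0]; norm_num)

/-! ### Frame vectors -/

/-- The number of a frame vector. -/
def eN (i : ℕ) : ℕ := ofF fun k => if k = i then 24 else 16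

lemma eN_spec : ∀ i < 24, (latOK (eN i) = true) ∧ ∀ p : GolayPt, dec (eN i) p = (Pi.single (pt i) 8 : GolayPt → ℤ) p := by
  decide +kernel

lemma eN_val {i : ℕ} (hi : i < 24) : Val (eN i) := (lat_of_latOK (eN_spec i hi).1).1

lemma eN_dec {i : ℕ} (hi : i < 24) : dec (eN i) = (eV (pt i)).1 := funext (eN_spec i hi).2

lemma eN_mem {i : ℕ} (hi : i < 24) : dec (eN i) ∈ leechLattice := by
  rw [eN_dec hi]
  exact (eV (pt i)).2

lemma eV_norm (p : GolayPt) : sqNorm (eV p).1 = 64 := by
  show sqNorm (Pi.single p 8 : GolayPt → ℤ) = 64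
  revert p
  decide +kernel

/-- Automorphisms agreeing on the frame are equal. -/
theorem co0_eq_of_frame {g h : ↥Co0} (H : ∀ i < 24, g • eV (pt i) = h • eV (pt i)) : g = h := by
  have hk : ∀ i < 24, (h⁻¹ * g) • eV (pt i) = eV (pt i) := by
    intro i hi
    rw [mul_smul, H i hi, inv_smul_smul]
  have : h⁻¹ * g = 1 := by
    apply co0_ext
    intro v j
    have h1 := hk (idx j) (idx_lt j)
    rw [pt_idx] at h1
    have h2 := g_dot (h⁻¹ * g) v (eV j)
    have h3 : (((h⁻¹ * g).1 (eV j)) : ↥leechLattice) = eV j := h1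
    rw [h3] at h2
    have h4 : dotInt ((h⁻¹ * g).1 v).1 (Pi.single j 8) = dotInt v.1 (Pi.single j 8) := h2
    rw [dot_single, dot_single] at h4
    have h5 : ((h⁻¹ * g).1 v).1 j = v.1 j := by omega
    exact h5
  exact (inv_mul_eq_one.mp this).symm

/-! ### Iterated evaluation and checks of elements -/

/-- Iterated evaluation. -/
noncomputable def iterM (R : List Row) (k : ℕ) : ℕ → ℕ :=
  Nat.rec (motive := fun _ => ℕ → ℕ) (fun n => n) (fun _ ih n => forceN (evalM R n) ih) k

lemma iterM_succ (R : List Row) (k n : ℕ) : iterM R (k + 1) n = iterM R k (evalM R n) := by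
  show forceN (evalM R n) (iterM R k) = _
  rw [forceN_eq]

lemma iterM_spec {R : List Row} (hR : rowsOK R = true) {g : ↥Co0} (hg : CoAct R g) (k : ℕ) {n : ℕ} (hn : Val n)
    (hd : dec n ∈ leechLattice) (hb : sqNorm (dec n) ≤ 256) :
    Val (iterM R k n) ∧ dec (iterM R k n) = ((g ^ k) • (⟨dec n, hd⟩ : ↥leechLattice)).1 := by
  induction k generalizing n with
  | zero => exact ⟨hn, rfl⟩
  | succ k ih =>
    have h1 := evalM_spec hR hg hn hd hb
    have hd' : dec (evalM R n) ∈ leechLattice := by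
      rw [h1.2]
      exact (g.1 ⟨dec n, hd⟩).2
    have hb' : sqNorm (dec (evalM R n)) ≤ 256 := by
      rw [h1.2, g_norm]
      exact hb
    have h2 := ih h1.1 hd' hb'
    rw [iterM_succ]
    refine ⟨h2.1, ?_⟩
    rw [h2.2, pow_succ, mul_smul]
    congr 2
    exact Subtype.ext h1.2

/-- The test of an element of prime order. -/
noncomputable def ordB (p : ℕ) (R : List Row) : Bool :=
  allL (fun i => Nat.beq (iterM R p (eN i)) (eN i)) (List.range 24) &&
    !(allL (fun i => Nat.beq (evalM R (eN i)) (eN i)) (List.range 24))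

theorem order_of_ordB {p : ℕ} [hp : Fact p.Prime] {R : List Row} (hR : rowsOK R = true) {g : ↥Co0} (hg : CoAct R g)
    (h : ordB p R = true) : orderOf g = p := by
  simp only [ordB, Bool.and_eq_true, Bool.not_eq_true'] at h
  obtain ⟨h1, h2⟩ := h
  have hb : ∀ i, sqNorm (dec (eN i)) ≤ 256 → True := fun _ _ => trivial
  have hle : ∀ i < 24, sqNorm (dec (eN i)) ≤ 256 := by
    intro i hi
    rw [eN_dec hi, eV_norm]
    norm_num
  apply orderOf_eq_prime
  · apply co0_eq_of_frame
    intro i hi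
    have h3 := Nat.eq_of_beq_eq_true (allL_spec h1 i (List.mem_range.2 hi))
    have h4 := iterM_spec hR hg p (eN_val hi) (eN_mem hi) (hle i hi)
    rw [h3] at h4
    rw [one_smul]
    have e : (⟨dec (eN i), eN_mem hi⟩ : ↥leechLattice) = eV (pt i) := Subtype.ext (eN_dec hi)
    rw [← e]
    exact (Subtype.ext h4.2).symm
  · intro h1g
    have : allL (fun i => Nat.beq (evalM R (eN i)) (eN i)) (List.range 24) = true := by
      apply allL_iff.2
      intro i hi
      have hi' := List.mem_range.1 hi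
      have h5 := evalM_spec hR hg (eN_val hi') (eN_mem hi') (hle i hi')
      have h6 : dec (evalM R (eN i)) = dec (eN i) := by
        rw [h5.2, h1g]
        rfl
      rw [dec_inj h5.1 (eN_val hi') h6]
      exact Nat.beq_refl _
    rw [this] at h2
    exact Bool.noConfusion h2

/-- The test of a nonidentity element. -/
noncomputable def nonIdB (R : List Row) : Bool :=
  !(allL (fun i => Nat.beq (evalM R (eN i)) (eN i)) (List.range 24))

theorem ne_one_of_nonIdB {R : List Row} (hR : rowsOK R = true) {g : ↥Co0} (hg : CoAct R g) (h : nonIdB R = true) : g ≠ 1 := by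
  intro h1g
  simp only [nonIdB, Bool.not_eq_true'] at h
  have hle : ∀ i < 24, sqNorm (dec (eN i)) ≤ 256 := by
    intro i hi
    rw [eN_dec hi, eV_norm]
    norm_num
  have : allL (fun i => Nat.beq (evalM R (eN i)) (eN i)) (List.range 24) = true := by
    apply allL_iff.2
    intro i hi
    have hi' := List.mem_range.1 hi
    have h5 := evalM_spec hR hg (eN_val hi') (eN_mem hi') (hle i hi')
    have h6 : dec (evalM R (eN i)) = dec (eN i) := by
      rw [h5.2, h1g]
      rfl
    rw [dec_inj h5.1 (eN_val hi') h6]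
    exact Nat.beq_refl _
  rw [this] at h
  exact Bool.noConfusion h

/-- The test of a product. -/
noncomputable def prodB (R Rx Ru : List Row) : Bool :=
  allL (fun i => Nat.beq (evalM R (evalM Rx (eN i))) (evalM Ru (eN i))) (List.range 24)

theorem mul_of_prodB {R Rx Ru : List Row} (hR : rowsOK R = true) (hRx : rowsOK Rx = true) (hRu : rowsOK Ru = true)
    {g x u : ↥Co0} (hg : CoAct R g) (hx : CoAct Rx x) (hu : CoAct Ru u) (h : prodB R Rx Ru = true) : g * x = u := by
  apply co0_eq_of_frame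
  intro i hi
  have hle : sqNorm (dec (eN i)) ≤ 256 := by
    rw [eN_dec hi, eV_norm]
    norm_num
  have h1 := Nat.eq_of_beq_eq_true (allL_spec h i (List.mem_range.2 hi))
  have h2 := evalM_spec hRx hx (eN_val hi) (eN_mem hi) hle
  have hd : dec (evalM Rx (eN i)) ∈ leechLattice := by
    rw [h2.2]
    exact (x.1 _).2
  have hb : sqNorm (dec (evalM Rx (eN i))) ≤ 256 := by
    rw [h2.2, g_norm]
    exact hle
  have h3 := evalM_spec hR hg h2.1 hd hb
  have h4 := evalM_spec hRu hu (eN_val hi) (eN_mem hi) hle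
  have e : (⟨dec (eN i), eN_mem hi⟩ : ↥leechLattice) = eV (pt i) := Subtype.ext (eN_dec hi)
  rw [h1, h4.2] at h3
  rw [mul_smul]
  apply Subtype.ext
  have e2 : (⟨dec (evalM Rx (eN i)), hd⟩ : ↥leechLattice) = x • eV (pt i) := by
    apply Subtype.ext
    rw [← e]
    exact h2.2
  rw [e2, e] at h3
  exact h3.2.symm

/-! ### Steps of chains -/

/-- Membership in a fixer of a longer list. -/
theorem mem_Fx_cons {L : List ℕ} {n0 : ℕ} (hd : dec n0 ∈ leechLattice) {g : ↥Co0} :
    g ∈ Fx (n0 :: L) ↔ g ∈ Fx L ∧ g • (⟨dec n0, hd⟩ : ↥leechLattice) = ⟨dec n0, hd⟩ := by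
  constructor
  · intro h
    exact ⟨fun m hm hm' => h m (List.mem_cons_of_mem _ hm) hm', h n0 (List.mem_cons_self ..) hd⟩
  · rintro ⟨h1, h2⟩ m hm hm'
    rcases List.mem_cons.1 hm with rfl | hm2
    · exact h2
    · exact h1 m hm2 hm'

/-- The order of a subgroup from an orbit and the stabiliser. -/
theorem card_step (K : Subgroup ↥Co0) (L : List ℕ) {n0 : ℕ} (hd : dec n0 ∈ leechLattice) :
    Nat.card ↥(K ⊓ Fx L) = Nat.card ↥(K ⊓ Fx (n0 :: L)) *
      (orbit ↥(K ⊓ Fx L) (⟨dec n0, hd⟩ : ↥leechLattice)).ncard := by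
  have h1 := Subgroup.card_mul_index (stabilizer ↥(K ⊓ Fx L) (⟨dec n0, hd⟩ : ↥leechLattice))
  rw [index_stabilizer] at h1
  rw [← h1]
  congr 1
  have hle : K ⊓ Fx (n0 :: L) ≤ K ⊓ Fx L := by
    intro g hg
    exact ⟨hg.1, ((mem_Fx_cons hd).1 hg.2).1⟩
  have e : stabilizer ↥(K ⊓ Fx L) (⟨dec n0, hd⟩ : ↥leechLattice) = (K ⊓ Fx (n0 :: L)).subgroupOf (K ⊓ Fx L) := by
    ext g
    rw [Subgroup.mem_subgroupOf, mem_stabilizer_iff]
    constructor
    · intro h
      exact ⟨g.2.1, (mem_Fx_cons hd).2 ⟨g.2.2, h⟩⟩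
    · intro h
      exact ((mem_Fx_cons hd).1 h.2).2
  rw [e]
  exact Nat.card_congr (Subgroup.subgroupOfEquivOfLe hle).toEquiv

/-- Strictly increasing lists. -/
def strictB : ℕ → List ℕ → Bool
  | _, [] => true
  | a, b :: l => Nat.blt a b && strictB b l

lemma strictB_lt {a : ℕ} {l : List ℕ} (h : strictB a l = true) : ∀ y ∈ l, a < y := by
  induction l generalizing a with
  | nil => simp
  | cons b l ih =>
    simp only [strictB, Bool.and_eq_true] at h
    have h1 := blt_sound h.1
    intro y hy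
    rcases List.mem_cons.1 hy with rfl | hy
    · exact h1
    · exact h1.trans (ih h.2 y hy)

lemma strictB_nodup {a : ℕ} {l : List ℕ} (h : strictB a l = true) : l.Nodup := by
  induction l generalizing a with
  | nil => simp
  | cons b l ih =>
    simp only [strictB, Bool.and_eq_true] at h
    refine List.nodup_cons.2 ⟨fun hb => ?_, ih h.2⟩
    exact lt_irrefl _ (strictB_lt h.2 b hb)

/-- One step of a chain. -/
theorem chain_step {K : Subgroup ↥Co0} {L : List ℕ} {gens : List Mv} {fuel n0 : ℕ} (hn0 : Val n0)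
    (hd : dec n0 ∈ leechLattice) (hb : sqNorm (dec n0) ≤ 256) (hg : ∀ T ∈ gens, MvOK (K ⊓ Fx L) T) {ys : List ℕ} (hs : strictB 0 ys = true)
    (hy : ∀ y ∈ ys, inT (orbitT (actMv []) gens fuel (saltN n0)) (saltN y) = true) :
    Nat.card ↥(K ⊓ Fx (n0 :: L)) * ys.length ≤ Nat.card ↥(K ⊓ Fx L) := by
  classical
  rw [card_step K L hd]
  apply Nat.mul_le_mul_left
  set H := K ⊓ Fx L with hH
  set b : ↥leechLattice := ⟨dec n0, hd⟩ with hbdef
  have hP : ∀ y ∈ ys, Val y ∧ InOrb H b (dec y) := by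
    intro y hy'
    have h0 : PO H b (un (saltN n0)) := by
      rw [un_salt]
      exact ⟨hn0, 1, H.one_mem, rfl⟩
    have h1 := orbitT_sound (P := fun m => PO H b (un m)) (act := actMv [])
      (fun T hT x hx => po_act hb (l := []) (by simp) (hg T hT) hx) h0 (hy y hy')
    simp only [un_salt] at h1
    exact h1
  have hfin : (orbit ↥H b).Finite := Set.finite_range _
  rw [ncard_coe]
  have hsub : dec '' (↑ys.toFinset : Set ℕ) ⊆ Subtype.val '' (orbit ↥H b) := by
    rintro _ ⟨y, hy', rfl⟩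
    have hy2 : y ∈ ys := by simpa using hy'
    obtain ⟨-, h, hh, e⟩ := hP y hy2
    exact ⟨h.1 b, ⟨⟨h, hh⟩, rfl⟩, e⟩
  have hinj : Set.InjOn dec (↑ys.toFinset : Set ℕ) := by
    intro a ha c hc e
    have ha' : a ∈ ys := by simpa using ha
    have hc' : c ∈ ys := by simpa using hc
    exact dec_inj (hP a ha').1 (hP c hc').1 e
  have h3 := Set.ncard_le_ncard hsub (hfin.image _)
  rw [hinj.ncard_image, Set.ncard_coe_finset, List.toFinset_card_of_nodup (strictB_nodup hs)] at h3
  exact h3

/-! ### Pools of elements of prime order and whole chains -/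

/-- A generator with two members of a pool. -/
abbrev GenQ : Type := List Row × ℕ × ℕ

/-- A level of a chain: generators, the seed, the fuel, the list of vectors found. -/
abbrev Level : Type := List GenQ × ℕ × ℕ × List ℕ

/-- The moves of a level. -/
def lvlGens (l : List GenQ) : List Mv := l.map (fun q => Mv.mat q.1)

/-- The test of a pool. -/
noncomputable def poolB (Lg : List ℕ) (p : ℕ) (Pool : List (List Row)) : Bool :=
  goodLB Lg && allL (fun R => matChk Lg R (trR R) && ordB p R) Pool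

/-- The test of a generator. -/
noncomputable def genB (L : List ℕ) (Pool : List (List Row)) (q : GenQ) : Bool :=
  matChk L q.1 (trR q.1) && Nat.blt q.2.1 Pool.length && Nat.blt q.2.2 Pool.length &&
    prodB q.1 (Pool.getD q.2.1 []) (Pool.getD q.2.2 [])

/-- The test of a level. -/
noncomputable def levelB (L : List ℕ) (Pool : List (List Row)) (lv : Level) : Bool :=
  goodLB L && allL (genB L Pool) lv.1 && latOK lv.2.1 && goodB lv.2.1 && strictB 0 lv.2.2.2 &&
    allL (fun y => inT (orbitT (actMv []) (lvlGens lv.1) lv.2.2.1 (saltN lv.2.1)) (saltN y)) lv.2.2.2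

/-- The test of a chain. -/
noncomputable def chainB (Pool : List (List Row)) : List ℕ → List Level → Bool
  | _, [] => true
  | L, lv :: r => levelB L Pool lv && chainB Pool (lv.2.1 :: L) r

/-- The final list of a chain. -/
def chainEnd : List ℕ → List Level → List ℕ
  | L, [] => L
  | L, lv :: r => chainEnd (lv.2.1 :: L) r

/-- The product of the sizes. -/
def chainProd : List Level → ℕ
  | [] => 1
  | lv :: r => lv.2.2.2.length * chainProd r

section chain

variable {K : Subgroup ↥Co0} {Lg : List ℕ} {p : ℕ} {Pool : List (List Row)}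

lemma rows_of_matChk {L : List ℕ} {R R' : List Row} (h : matChk L R R' = true) : rowsOK R = true := by
  simp only [matChk, coOK, Bool.and_eq_true] at h
  exact h.1.1.1.1.1.1.1

/-- A member of a pool lies in a subgroup containing the elements of prime order. -/
theorem pool_mem [Fact p.Prime] (hP : poolB Lg p Pool = true) (hK : ∀ y ∈ Fx Lg, orderOf y = p → y ∈ K) {R : List Row}
    (hR : R ∈ Pool) : rowsOK R = true ∧ ∃ g ∈ K, CoAct R g := by
  simp only [poolB, Bool.and_eq_true] at hP
  have h1 := allL_spec hP.2 R hR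
  simp only [Bool.and_eq_true] at h1
  obtain ⟨hr, g, hg, hc⟩ := matOK_of_chk (goodL_of _ hP.1) h1.1
  exact ⟨hr, g, hK g hg (order_of_ordB hr hc h1.2), hc⟩

/-- A generator lies in the subgroup. -/
theorem gen_mem [Fact p.Prime] (hP : poolB Lg p Pool = true) (hK : ∀ y ∈ Fx Lg, orderOf y = p → y ∈ K) {L : List ℕ}
    (hL : GoodL L) {q : GenQ} (h : genB L Pool q = true) : MvOK (K ⊓ Fx L) (Mv.mat q.1) := by
  simp only [genB, Bool.and_eq_true] at h
  obtain ⟨⟨⟨h1, h2⟩, h3⟩, h4⟩ := h
  obtain ⟨hr, g, hg, hc⟩ := matOK_of_chk hL h1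
  have m2 : Pool.getD q.2.1 [] ∈ Pool := by
    rw [List.getD_eq_getElem _ _ (blt_sound h2)]
    exact List.getElem_mem _
  have m3 : Pool.getD q.2.2 [] ∈ Pool := by
    rw [List.getD_eq_getElem _ _ (blt_sound h3)]
    exact List.getElem_mem _
  obtain ⟨r2, x, hx, cx⟩ := pool_mem hP hK m2
  obtain ⟨r3, u, hu, cu⟩ := pool_mem hP hK m3
  have e := mul_of_prodB hr r2 r3 hc cx cu h4
  refine ⟨hr, g, ⟨?_, hg⟩, hc⟩
  have : g = u * x⁻¹ := by
    rw [← e]
    group
  rw [this]
  exact K.mul_mem hu (K.inv_mem hx)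

/-- The bound from a chain. -/
theorem chain_spec [Fact p.Prime] (hP : poolB Lg p Pool = true) (hK : ∀ y ∈ Fx Lg, orderOf y = p → y ∈ K) (lvls : List Level)
    (L : List ℕ) (h : chainB Pool L lvls = true) :
    Nat.card ↥(K ⊓ Fx (chainEnd L lvls)) * chainProd lvls ≤ Nat.card ↥(K ⊓ Fx L) := by
  induction lvls generalizing L with
  | nil => simp [chainEnd, chainProd]
  | cons lv r ih =>
    simp only [chainB, levelB, Bool.and_eq_true] at h
    obtain ⟨⟨⟨⟨⟨⟨h1, h2⟩, h3⟩, h4⟩, h5⟩, h6⟩, h7⟩ := h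
    have hL := goodL_of L h1
    have hlat := lat_of_latOK h3
    have hle := (good_of_goodB h4).2
    have hstep := chain_step (K := K) (L := L) (gens := lvlGens lv.1) (fuel := lv.2.2.1) hlat.1 hlat.2 hle
      (fun T hT => by
        obtain ⟨q, hq, rfl⟩ := List.mem_map.1 hT
        exact gen_mem hP hK hL (allL_spec h2 q hq)) h5 (allL_spec h6)
    have hrec := ih (lv.2.1 :: L) h7
    calc Nat.card ↥(K ⊓ Fx (chainEnd L (lv :: r))) * chainProd (lv :: r)
        = (Nat.card ↥(K ⊓ Fx (chainEnd (lv.2.1 :: L) r)) * chainProd r) * lv.2.2.2.length := by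
          simp only [chainEnd, chainProd]
          ring
      _ ≤ Nat.card ↥(K ⊓ Fx (lv.2.1 :: L)) * lv.2.2.2.length := Nat.mul_le_mul_right _ hrec
      _ ≤ _ := hstep

end chain

/-- Consequences of a chain with the right product: a subgroup containing the elements of prime order contains the
fixer at the start of the chain. -/
theorem chain_le {Lg : List ℕ} {p : ℕ} [Fact p.Prime] {Pool : List (List Row)} (hP : poolB Lg p Pool = true) {lvls : List Level} {L : List ℕ}
    (h : chainB Pool L lvls = true) (hc : Nat.card ↥(Fx L) = chainProd lvls) {K : Subgroup ↥Co0}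
    (hK : ∀ y ∈ Fx Lg, orderOf y = p → y ∈ K) : Fx L ≤ K := by
  have h1 := chain_spec hP hK lvls L h
  have h2 : 1 ≤ Nat.card ↥(K ⊓ Fx (chainEnd L lvls)) := Nat.card_pos
  have h3 : Nat.card ↥(Fx L) ≤ Nat.card ↥(K ⊓ Fx L) := by
    rw [hc]
    calc chainProd lvls = 1 * chainProd lvls := (one_mul _).symm
      _ ≤ _ := Nat.mul_le_mul_right _ h2
      _ ≤ _ := h1
  have h4 : K ⊓ Fx L = Fx L := Subgroup.eq_of_le_of_card_ge inf_le_right h3
  exact inf_eq_right.1 h4

/-- A certificate for a nonidentity product of elements of prime order and an element of prime order. -/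
theorem cert_exists {Lg L : List ℕ} {p : ℕ} [Fact p.Prime] {Pool : List (List Row)} (hP : poolB Lg p Pool = true) {q : GenQ}
    (hL : GoodL L) (hg : genB L Pool q = true) (hne : nonIdB q.1 = true) :
    ∃ y x u : ↥Co0, y ∈ Fx L ∧ y ≠ 1 ∧ x ∈ Fx Lg ∧ u ∈ Fx Lg ∧ orderOf x = p ∧ orderOf u = p ∧ y * x = u := by
  simp only [genB, Bool.and_eq_true] at hg
  obtain ⟨⟨⟨h1, h2⟩, h3⟩, h4⟩ := hg
  obtain ⟨hr, y, hy, hc⟩ := matOK_of_chk hL h1
  have m2 : Pool.getD q.2.1 [] ∈ Pool := by
    rw [List.getD_eq_getElem _ _ (blt_sound h2)]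
    exact List.getElem_mem _
  have m3 : Pool.getD q.2.2 [] ∈ Pool := by
    rw [List.getD_eq_getElem _ _ (blt_sound h3)]
    exact List.getElem_mem _
  simp only [poolB, Bool.and_eq_true] at hP
  have hA := allL_spec hP.2 _ m2
  have hB := allL_spec hP.2 _ m3
  simp only [Bool.and_eq_true] at hA hB
  obtain ⟨r2, x, hx, cx⟩ := matOK_of_chk (goodL_of _ hP.1) hA.1
  obtain ⟨r3, u, hu, cu⟩ := matOK_of_chk (goodL_of _ hP.1) hB.1
  exact ⟨y, x, u, hy, ne_one_of_nonIdB hr hc hne, hx, hu, order_of_ordB r2 cx hA.2, order_of_ordB r3 cu hB.2,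
    mul_of_prodB hr r2 r3 hc cx cu h4⟩

/-- The end of a chain with the right product is trivial. -/
theorem chain_end_trivial {Lg : List ℕ} {p : ℕ} [Fact p.Prime] {Pool : List (List Row)} (hP : poolB Lg p Pool = true) {lvls : List Level} {L : List ℕ}
    (h : chainB Pool L lvls = true) (hc : Nat.card ↥(Fx L) = chainProd lvls) (hpos : 0 < chainProd lvls) : Fx (chainEnd L lvls) = ⊥ := by
  have h1 := chain_spec (K := ⊤) hP (fun _ _ _ => Subgroup.mem_top _) lvls L h
  rw [top_inf_eq, top_inf_eq, hc] at h1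
  have h2 : Nat.card ↥(Fx (chainEnd L lvls)) ≤ 1 := by
    by_contra hh
    push Not at hh
    have := Nat.mul_lt_mul_of_pos_right hh hpos
    omega
  exact (Subgroup.card_le_one_iff_eq_bot _).1 h2

end Cfsg.Agent.Lib.LeechP
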