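/-
Automorphisms of the rank-24 lattice given by integer matrices with denominator eight.
-/
import Cfsg.Agent.Lib.LeechP.Vec

set_option autoImplicit false

namespace Cfsg.Agent.Lib.LeechP

open Cfsg Cfsg.Agent.Lib.Golay Cfsg.Agent.Lib.Golay.Leech Cfsg.Agent.Lib.LeechX Cfsg.Agent.Lib.M24

/-! ### From matrices to automorphisms -/

section abstract

variable (A : GolayPt → GolayPt → ℤ)

/-- The vectors with an image under the matrix. -/
def imgS : AddSubgroup (GolayPt → ℤ) where
  carrier := {x | ∃ y ∈ leechLattice, ∀ p, 8 * y p = ∑ q, A p q * x q}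
  zero_mem' := ⟨0, leechLattice.zero_mem, fun p => by simp⟩
  add_mem' := by
    rintro a b ⟨y, hy, h⟩ ⟨z, hz, k⟩
    refine ⟨y + z, leechLattice.add_mem hy hz, fun p => ?_⟩
    simp only [Pi.add_apply, mul_add, Finset.sum_add_distrib, h p, k p]
  neg_mem' := by
    rintro a ⟨y, hy, h⟩
    refine ⟨-y, leechLattice.neg_mem hy, fun p => ?_⟩
    simp only [Pi.neg_apply, mul_neg, Finset.sum_neg_distrib, h p]

theorem sum_mat_mat (B : GolayPt → GolayPt → ℤ) (x : GolayPt → ℤ) (p : GolayPt) :
    ∑ q, B p q * ∑ r, A q r * x r = ∑ r, (∑ q, B p q * A q r) * x r := by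
  simp only [Finset.mul_sum, Finset.sum_mul]
  rw [Finset.sum_comm]
  refine Finset.sum_congr rfl (fun r _ => Finset.sum_congr rfl (fun q _ => ?_))
  ring

theorem sum_delta (x : GolayPt → ℤ) (p : GolayPt) :
    ∑ r, (if p = r then (64 : ℤ) else 0) * x r = 64 * x p := by
  rw [Finset.sum_eq_single p]
  · simp
  · intro b _ hb
    simp [Ne.symm hb]
  · simp

theorem sqNorm_mat (hO : ∀ p q, ∑ r, A r p * A r q = if p = q then 64 else 0) (x : GolayPt → ℤ) :
    ∑ p, (∑ q, A p q * x q) ^ 2 = 64 * sqNorm x := by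
  have e : ∀ p, (∑ q, A p q * x q) ^ 2 = ∑ q, ∑ r, (A p q * A p r) * (x q * x r) := by
    intro p
    rw [sq, Finset.sum_mul_sum]
    refine Finset.sum_congr rfl (fun q _ => Finset.sum_congr rfl (fun r _ => ?_))
    ring
  simp only [e]
  rw [Finset.sum_comm]
  have e2 : ∀ q, ∑ p, ∑ r, (A p q * A p r) * (x q * x r) = 64 * x q ^ 2 := by
    intro q
    rw [Finset.sum_comm]
    have e3 : ∀ r, ∑ p, (A p q * A p r) * (x q * x r) = (if q = r then 64 else 0) * (x q * x r) := by
      intro r
      rw [← Finset.sum_mul, hO]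
    simp only [e3]
    rw [Finset.sum_eq_single q]
    · simp [sq]
    · intro b _ hb
      simp [Ne.symm hb]
    · simp
  simp only [e2, sqNorm, Finset.mul_sum]

end abstract

/-- An automorphism from a matrix. -/
theorem exists_co_of_matrix (A : GolayPt → GolayPt → ℤ)
    (hO : ∀ p q, ∑ r, A p r * A q r = if p = q then 64 else 0)
    (hO' : ∀ p q, ∑ r, A r p * A r q = if p = q then 64 else 0)
    (hL : leechLattice ≤ imgS A) (hL' : leechLattice ≤ imgS (fun p q => A q p)) :
    ∃ g : ↥Co0, (∀ (x : ↥leechLattice) (p : GolayPt), 8 * (g.1 x).1 p = ∑ q, A p q * x.1 q) ∧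
      ∀ (x : ↥leechLattice) (p : GolayPt), 8 * (g⁻¹.1 x).1 p = ∑ q, A q p * x.1 q := by
  have h1 : ∀ x : ↥leechLattice, ∃ y : ↥leechLattice, ∀ p, 8 * y.1 p = ∑ q, A p q * x.1 q := by
    intro x
    obtain ⟨y, hy, h⟩ := hL x.2
    exact ⟨⟨y, hy⟩, h⟩
  have h2 : ∀ x : ↥leechLattice, ∃ y : ↥leechLattice, ∀ p, 8 * y.1 p = ∑ q, A q p * x.1 q := by
    intro x
    obtain ⟨y, hy, h⟩ := hL' x.2
    exact ⟨⟨y, hy⟩, h⟩
  choose F hF using h1
  choose F' hF' using h2
  have hinj : ∀ {a b : ↥leechLattice}, (∀ p, 8 * a.1 p = 8 * b.1 p) → a = b := by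
    intro a b h
    apply Subtype.ext
    funext p
    have := h p
    omega
  have hFF' : ∀ x, F (F' x) = x := by
    intro x
    apply Subtype.ext
    funext p
    have h3 : 8 * (8 * (F (F' x)).1 p) = ∑ q, A p q * (8 * (F' x).1 q) := by
      rw [hF, Finset.mul_sum]
      refine Finset.sum_congr rfl (fun q _ => ?_)
      ring
    simp only [hF' x] at h3
    rw [sum_mat_mat (fun q r => A r q) A x.1 p] at h3
    simp only [hO] at h3
    rw [sum_delta] at h3
    omega
  have hF'F : ∀ x, F' (F x) = x := by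
    intro x
    apply Subtype.ext
    funext p
    have h3 : 8 * (8 * (F' (F x)).1 p) = ∑ q, A q p * (8 * (F x).1 q) := by
      rw [hF', Finset.mul_sum]
      refine Finset.sum_congr rfl (fun q _ => ?_)
      ring
    simp only [hF x] at h3
    rw [sum_mat_mat A (fun q r => A r q) x.1 p] at h3
    simp only [hO'] at h3
    rw [sum_delta] at h3
    omega
  have hadd : ∀ a b, F (a + b) = F a + F b := by
    intro a b
    apply hinj
    intro p
    rw [hF]
    simp only [AddSubgroup.coe_add, Pi.add_apply, mul_add, Finset.sum_add_distrib, hF]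
  have hnorm : ∀ x, sqNorm (F x).1 = sqNorm x.1 := by
    intro x
    have h3 := sqNorm_mat A hO' x.1
    have h4 : ∑ p, (∑ q, A p q * x.1 q) ^ 2 = 64 * sqNorm (F x).1 := by
      rw [sqNorm, Finset.mul_sum]
      refine Finset.sum_congr rfl (fun p _ => ?_)
      rw [← hF x p]
      ring
    linarith
  refine ⟨⟨⟨F, F', hF'F, hFF'⟩, hadd, hnorm⟩, hF, hF'⟩

/-! ### Matrices from lists of rows -/

/-- The matrix of a list of rows. -/
def matR (R : List Row) : GolayPt → GolayPt → ℤ := fun p q => entA R (idx p) (idx q)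

/-- The action of an automorphism through a list of rows. -/
def CoAct (R : List Row) (g : ↥Co0) : Prop :=
  ∀ (x : ↥leechLattice) (p : GolayPt), 8 * (g.1 x).1 p = ∑ q, entA R (idx p) (idx q) * x.1 q

/-- The value of a reversed row. -/
lemma revP_spec {rh : Row} (h : rowOK rh = true) :
    Val (revP rh.1) ∧ ∀ i < 24, fld (revP rh.1) i = rowA rh i := by
  have e : revP rh.1 = pk (rowA rh) 24 := by
    rw [revP, ← pk_rev]
    apply pk_congr
    intro i _
    rfl
  have hW : ∀ i < 24, rowA rh i < W := fun i hi =>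
    lt_of_le_of_lt (rowA_le h hi) (by norm_num [W])
  have hf : ∀ i < 24, fld (revP rh.1) i = rowA rh i := by
    intro i hi
    rw [e]
    exact fld_pk hW hi
  refine ⟨⟨?_, ?_⟩, hf⟩
  · rw [e]
    exact pk_lt hW
  · intro i hi
    rw [hf i hi]
    exact rowA_le h hi

lemma dotN_congr {a b c d : ℕ → ℕ} {m : ℕ} (h1 : ∀ i < m, a i = c i) (h2 : ∀ i < m, b i = d i) :
    dotN a b m = dotN c d m := by
  induction m with
  | zero => rfl
  | succ m ih =>
    rw [dotN_succ, dotN_succ, ih (fun i hi => h1 i (by omega)) (fun i hi => h2 i (by omega)),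
      h1 m (by omega), h2 m (by omega)]

/-- The check of an inner product of two rows. -/
def orthB (rh rh' : Row) (d : ℕ) : Bool :=
  Nat.beq (Nat.add (Nat.mul 2 (coefP rh.1 (revP rh'.1))) 3072) (Nat.add d (Nat.add rh.2 rh'.2))

lemma orthB_spec {rh rh' : Row} (h : rowOK rh = true) (h' : rowOK rh' = true) {d : ℕ}
    (hb : orthB rh rh' d = true) :
    ∑ q : GolayPt, ((rowA rh (idx q) : ℤ) - 8) * ((rowA rh' (idx q) : ℤ) - 8) = (d : ℤ) / 2 := by
  have h1 := sum_shift (rowA rh) (rowA rh') 8 8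
  have h2 := Nat.eq_of_beq_eq_true hb
  have h3 : 2 * coefP rh.1 (revP rh'.1) + 3072 = d + (rh.2 + rh'.2) := h2
  have hs := revP_spec h'
  have h4 : coefP rh.1 (revP rh'.1) = dotN (rowA rh) (rowA rh') 24 := by
    rw [rowP_coef h hs.1]
    exact dotN_congr (fun _ _ => rfl) hs.2
  rw [h4, row_h h, row_h h'] at h3
  have h5 : (2 * (dotN (rowA rh) (rowA rh') 24 : ℤ) + 3072) = d + (16 * sumF (rowA rh) + 16 * sumF (rowA rh')) := by
    exact_mod_cast h3
  rw [h1]
  have h6 : (d : ℤ) = 2 * ((dotN (rowA rh) (rowA rh') 24 : ℤ) - 8 * sumF (rowA rh) - 8 * sumF (rowA rh') + 24 * (8 * 8)) := by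
    linarith
  rw [h6]
  simp

/-- The orthogonality of the rows of a matrix. -/
noncomputable def orthOK (R : List Row) : Bool :=
  allL (fun i => allL (fun j => orthB (R.getD i (0, 0)) (R.getD j (0, 0)) (Nat.mul 128 (Nat.beq i j).toNat)) (List.range 24))
    (List.range 24)

lemma orth_spec {R : List Row} (hR : rowsOK R = true) (h : orthOK R = true) (p q : GolayPt) :
    ∑ r, matR R p r * matR R q r = if p = q then 64 else 0 := by
  have h1 := allL_spec (allL_spec h (idx p) (List.mem_range.2 (idx_lt p))) (idx q) (List.mem_range.2 (idx_lt q))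
  have h2 := orthB_spec (rowsOK_get hR (idx_lt p)) (rowsOK_get hR (idx_lt q)) h1
  have h3 : ∑ r, matR R p r * matR R q r = ∑ r : GolayPt, ((rowA (R.getD (idx p) (0, 0)) (idx r) : ℤ) - 8)
      * ((rowA (R.getD (idx q) (0, 0)) (idx r) : ℤ) - 8) := rfl
  rw [h3, h2]
  by_cases hpq : p = q
  · subst hpq
    simp [Nat.beq_refl]
  · have : Nat.beq (idx p) (idx q) = false := by
      cases hb : Nat.beq (idx p) (idx q)
      · rfl
      · exact absurd (idx_injective (Nat.eq_of_beq_eq_true hb)) hpq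
    simp [this, hpq]

/-- The transposition check. -/
noncomputable def transOK (R R' : List Row) : Bool :=
  allL (fun i => allL (fun j => Nat.beq (fld (R.getD i (0, 0)).1 (23 - j)) (fld (R'.getD j (0, 0)).1 (23 - i))) (List.range 24))
    (List.range 24)

lemma trans_spec {R R' : List Row} (h : transOK R R' = true) (p q : GolayPt) : matR R' p q = matR R q p := by
  have h1 := allL_spec (allL_spec h (idx q) (List.mem_range.2 (idx_lt q))) (idx p) (List.mem_range.2 (idx_lt p))
  have h2 := Nat.eq_of_beq_eq_true h1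
  show ((fld (R'.getD (idx p) (0, 0)).1 (23 - idx q) : ℕ) : ℤ) - 8 = ((fld (R.getD (idx q) (0, 0)).1 (23 - idx p) : ℕ) : ℤ) - 8
  rw [h2]

/-! ### Generators of the lattice as numbers -/

/-- The number of a vector with values `f i - 16` at index `i`. -/
def ofF (f : ℕ → ℕ) : ℕ := pk f 24

def nOdd : ℕ := ofF fun i => if i = 23 then 13 else 17
def nEight : ℕ := ofF fun i => if i = 23 then 24 else 16
def nFd (j : GolayPt) : ℕ := ofF fun i => 16 + (if i = idx j then 4 else 0) - (if i = 23 then 4 else 0)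
def nDb (m : ℕ) : ℕ := ofF fun i => if m.testBit i then 18 else 16

lemma dec_nOdd : dec nOdd = oddV := by
  funext p
  revert p
  decide +kernel

lemma dec_nEight : dec nEight = eightE := by
  funext p
  revert p
  decide +kernel

lemma dec_nFd (j : GolayPt) : dec (nFd j) = fd j := by
  funext p
  revert j p
  decide +kernel

lemma dec_nDb : ∀ m ∈ E, dec (nDb m) = dblE m := by
  intro m hm
  funext p
  revert m p
  decide +kernel

/-- The generators. -/
def LG : List ℕ := nOdd :: nEight :: (List.map (fun i => nFd (pt i)) (List.range 24) ++ List.map nDb E)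

lemma val_LG : ∀ n ∈ LG, Val n := by
  intro n hn
  apply val_of_valB
  revert n
  decide +kernel

/-- One row on a vector. -/
def rowGood (n F : ℕ) (rh : Row) : Bool :=
  Nat.ble (Nat.add rh.2 (Nat.mul 8 F)) (Nat.add (coefP rh.1 n) 3200) &&
    Nat.beq (Nat.mod (rowN n F rh) 8) 0 && Nat.ble (rowN n F rh) 256

lemma rowGood_spec {rh : Row} (h : rowOK rh = true) {n : ℕ} (hn : Val n)
    (hg : rowGood n (coefP onesP n) rh = true) :
    ∃ y : ℤ, 8 * y = ∑ q : GolayPt, ((rowA rh (idx q) : ℤ) - 8) * dec n q ∧ |y| ≤ 16 := by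
  simp only [rowGood, Bool.and_eq_true] at hg
  obtain ⟨⟨h1, h2⟩, h3⟩ := hg
  have h1' := Nat.le_of_ble_eq_true h1
  have h2' := Nat.eq_of_beq_eq_true h2
  have h3' := Nat.le_of_ble_eq_true h3
  have h4 : rh.2 + 8 * coefP onesP n ≤ coefP rh.1 n + 3200 := h1'
  have h5 : rowN n (coefP onesP n) rh = coefP rh.1 n + 3200 - (rh.2 + 8 * coefP onesP n) := rfl
  have h6 : rowN n (coefP onesP n) rh % 8 = 0 := h2'
  obtain ⟨k, hk⟩ : ∃ k, rowN n (coefP onesP n) rh = 8 * k := ⟨rowN n (coefP onesP n) rh / 8, by omega⟩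
  refine ⟨(k : ℤ) - 16, ?_, ?_⟩
  · rw [row_sum h hn]
    have h7 : coefP rh.1 n + 3200 = 8 * k + (rh.2 + 8 * coefP onesP n) := by omega
    have h8 : (coefP rh.1 n : ℤ) + 3200 = 8 * k + (rh.2 + 8 * coefP onesP n) := by exact_mod_cast h7
    linarith
  · rw [abs_le]
    have : k ≤ 32 := by omega
    omega

/-- The rows on a vector. -/
noncomputable def genChk (R : List Row) (n : ℕ) : Bool :=
  allL (rowGood n (coefP onesP n)) R && latOK (evalM R n)

lemma genChk_spec {R : List Row} (hR : rowsOK R = true) {n : ℕ} (hn : Val n) (h : genChk R n = true) :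
    dec n ∈ imgS (matR R) := by
  simp only [genChk, Bool.and_eq_true] at h
  have key : ∀ p : GolayPt, ∃ y : ℤ, 8 * y = ∑ q : GolayPt, entA R (idx p) (idx q) * dec n q ∧ |y| ≤ 16 := by
    intro p
    have hp := idx_lt p
    have hl := rowsOK_len hR
    have hm : R.getD (idx p) (0, 0) ∈ R := by
      rw [List.getD_eq_getElem _ _ (by omega)]
      exact List.getElem_mem _
    exact rowGood_spec (rowsOK_get hR hp) hn (allL_spec h.1 _ hm)
  choose y hy1 hy2 using key
  have h2 := eval_spec hR hn hy1 hy2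
  have h3 := (lat_of_latOK h.2).2
  rw [h2.2] at h3
  exact ⟨y, h3, hy1⟩

/-- All generators. -/
noncomputable def gensOK (R : List Row) : Bool := allL (genChk R) LG

lemma gens_spec {R : List Row} (hR : rowsOK R = true) (h : gensOK R = true) :
    leechLattice ≤ imgS (matR R) := by
  have hg : ∀ n ∈ LG, dec n ∈ imgS (matR R) := fun n hn =>
    genChk_spec hR (val_LG n hn) (allL_spec h n hn)
  apply lattice_le
  · rw [← dec_nOdd]
    exact hg _ (by simp [LG])
  · intro j
    rw [← dec_nFd]
    apply hg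
    apply List.mem_cons_of_mem
    apply List.mem_cons_of_mem
    apply List.mem_append_left
    rw [List.mem_map]
    exact ⟨idx j, List.mem_range.2 (idx_lt j), by rw [pt_idx]⟩
  · rw [← dec_nEight]
    exact hg _ (by simp [LG])
  · intro m hm
    rw [← dec_nDb m hm]
    apply hg
    apply List.mem_cons_of_mem
    apply List.mem_cons_of_mem
    apply List.mem_append_right
    exact List.mem_map.2 ⟨m, hm, rfl⟩

/-- The whole check of a matrix and its transpose. -/
noncomputable def coOK (R R' : List Row) : Bool :=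
  rowsOK R && rowsOK R' && transOK R R' && orthOK R && orthOK R' && gensOK R && gensOK R'

theorem exists_co {R R' : List Row} (h : coOK R R' = true) :
    ∃ g : ↥Co0, CoAct R g ∧ CoAct R' g⁻¹ := by
  simp only [coOK, Bool.and_eq_true] at h
  obtain ⟨⟨⟨⟨⟨⟨h1, h2⟩, h3⟩, h4⟩, h5⟩, h6⟩, h7⟩ := h
  have hT := trans_spec h3
  have hO := orth_spec h1 h4
  have hO' : ∀ p q, ∑ r, matR R r p * matR R r q = if p = q then 64 else 0 := by
    intro p q
    rw [← orth_spec h2 h5 p q]
    refine Finset.sum_congr rfl (fun r _ => ?_)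
    rw [hT, hT]
  have hL := gens_spec h1 h6
  have hL' : leechLattice ≤ imgS (fun p q => matR R q p) := by
    have := gens_spec h2 h7
    have e : matR R' = fun p q => matR R q p := by
      funext p q
      exact hT p q
    rwa [e] at this
  obtain ⟨g, hg, hg'⟩ := exists_co_of_matrix (matR R) hO hO' hL hL'
  refine ⟨g, hg, fun x p => ?_⟩
  rw [hg' x p]
  refine Finset.sum_congr rfl (fun q _ => ?_)
  rw [← hT]
  rfl

end Cfsg.Agent.Lib.LeechP
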