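/-
Stabilisers of vectors: orders from orbits.
-/
import Cfsg.Agent.Lib.LeechP.Chain
import Cfsg.Agent.Lib.LeechP.Simp

set_option autoImplicit false

namespace Cfsg.Agent.Lib.LeechP

open Cfsg Cfsg.Agent.Lib.Golay Cfsg.Agent.Lib.Golay.Leech Cfsg.Agent.Lib.LeechX Cfsg.Agent.Lib.M24 MulAction

/-- The stabiliser of a vector. -/
abbrev stb (x : ↥leechLattice) : Subgroup ↥Co0 := stabilizer ↥Co0 x

theorem card_inf_stb (G : Subgroup ↥Co0) (x : ↥leechLattice) :
    Nat.card ↥(G ⊓ stb x) * (orbit ↥G x).ncard = Nat.card ↥G := by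
  have h1 := Subgroup.card_mul_index (stabilizer ↥G x)
  rw [index_stabilizer] at h1
  rw [← h1]
  congr 1
  have hle : G ⊓ stb x ≤ G := inf_le_left
  have e : stabilizer ↥G x = (G ⊓ stb x).subgroupOf G := by
    ext g
    rw [Subgroup.mem_subgroupOf, mem_stabilizer_iff]
    constructor
    · intro h
      exact ⟨g.2, h⟩
    · intro h
      exact h.2
  rw [e]
  exact (Nat.card_congr (Subgroup.subgroupOfEquivOfLe hle).toEquiv).symm

/-- The order of a stabiliser of a vector whose orbit is known. -/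
theorem card_stb (x : ↥leechLattice) {N M : ℕ} (hN : N ≠ 0) (hO : (orbit ↥Co0 x).ncard = N) (hM : N * M = 8315553613086720000) :
    Nat.card ↥(stb x) = M := by
  have h1 := Subgroup.card_mul_index (stabilizer ↥Co0 x)
  rw [index_stabilizer, hO, card_Co0, ← hM, mul_comm] at h1
  exact Nat.eq_of_mul_eq_mul_left (Nat.pos_of_ne_zero hN) h1

theorem orbit_co0 {x : ↥leechLattice} {N : ℤ} (hx : sqNorm x.1 = N) (h : ∀ y : ↥leechLattice, sqNorm y.1 = N → ∃ g : ↥Co0, g • x = y) :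
    (orbit ↥Co0 x).ncard = {z : GolayPt → ℤ | z ∈ leechLattice ∧ sqNorm z = N}.ncard := by
  rw [ncard_coe]
  congr 1
  ext z
  constructor
  · rintro ⟨_, ⟨g, rfl⟩, rfl⟩
    exact ⟨(g • x).2, (norm_smul g x).trans hx⟩
  · rintro ⟨h1, h2⟩
    obtain ⟨g, hg⟩ := h ⟨z, h1⟩ h2
    exact ⟨⟨z, h1⟩, ⟨g, hg⟩, rfl⟩

theorem card_stb_min (v : ↥leechLattice) (hv : sqNorm v.1 = 32) : Nat.card ↥(stb v) = 42305421312000 := by
  apply card_stb v (N := 196560) (by norm_num) _ (by norm_num)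
  rw [orbit_co0 hv (fun y hy => min_trans v y hv hy)]
  exact ncard_norm32

theorem card_stb_48 (v : ↥leechLattice) (hv : sqNorm v.1 = 48) : Nat.card ↥(stb v) = 495766656000 := by
  apply card_stb v (N := 16773120) (by norm_num) _ (by norm_num)
  rw [orbit_co0 hv (fun y hy => trans48 v y hv hy)]
  exact ncard_norm48

end Cfsg.Agent.Lib.LeechP
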