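/-
The simplicity criterion for subgroups of the automorphism group of the rank-24 lattice.
-/
import Cfsg.Agent.Lib.LeechP.Chain
import Cfsg.Agent.Lib.LeechP.Simp

set_option autoImplicit false

namespace Cfsg.Agent.Lib.LeechP

open Cfsg Cfsg.Agent.Lib.Golay Cfsg.Agent.Lib.Golay.Leech Cfsg.Agent.Lib.LeechX Cfsg.Agent.Lib.M24 MulAction

theorem simple_concrete (Gs : Subgroup ↥Co0) [Nontrivial ↥Gs] {p : ℕ} [Fact p.Prime] (a : ↥leechLattice)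
    (Ω : Set ↥leechLattice) (hO : orbit ↥Gs a = Ω) (hdvd : p ∣ Ω.ncard) (hpp : ¬ p ^ 2 ∣ Nat.card ↥Gs)
    {r : ℕ} (P : Fin r → Set ↥leechLattice) (n : Fin r → ℕ) (hn : ∀ i, (P i).ncard = n i) (hf : ∀ i, (P i).Finite)
    (hd : ∀ i j, i ≠ j → Disjoint (P i) (P j)) (hna : ∀ i, a ∉ P i) (hcov : ∀ x ∈ Ω, x = a ∨ ∃ i, x ∈ P i)
    (hsub : ∀ i, P i ⊆ Ω) (hcl : ∀ i, ∀ x ∈ P i, ∀ y ∈ P i, ∃ g ∈ Gs, g • a = a ∧ g • x = y)
    (harith : ∀ I : Finset (Fin r), (1 + ∑ i ∈ I, n i) ∣ Ω.ncard → I = ∅ ∨ I = Finset.univ)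
    (hfaith : ∀ N : Subgroup ↥Gs, N.Normal → (∀ k ∈ N, ∀ x ∈ Ω, (k.1 : ↥Co0) • x = x) → N = ⊥)
    (hgen : ∀ K : Subgroup ↥Gs, K.Normal → (∀ y : ↥Gs, orderOf y = p → y ∈ K) → ∀ g : ↥Gs, g.1 • a = a → g ∈ K) :
    IsSimpleGroup ↥Gs := by
  have haΩ : a ∈ Ω := by
    rw [← hO]
    exact mem_orbit_self a
  refine simple_crit (G := ↥Gs) (X := ↥leechLattice) (p := p) a (by rw [hO]; exact hdvd) hpp ?_ ?_ ?_
  · intro N hN
    rw [hO]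
    have hfo : Finite (orbit ↥Gs a) := (Set.finite_range _).to_subtype
    have h1 := orbit_normal_dvd N a
    rw [hO] at h1
    have hB : orbit ↥N a ⊆ Ω := by
      rw [← hO]
      rintro _ ⟨k, rfl⟩
      exact ⟨k.1, rfl⟩
    have hcl' : ∀ i, ∀ x ∈ P i, ∀ y ∈ P i, x ∈ orbit ↥N a → y ∈ orbit ↥N a := by
      intro i x hx y hy hxB
      obtain ⟨g, hg, e1, e2⟩ := hcl i x hx y hy
      have := orbit_normal_inv N (g := (⟨g, hg⟩ : ↥Gs)) e1 hxB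
      rw [← e2]
      exact this
    obtain ⟨I, e1, e2⟩ := block_of_parts P n hn hf hd hna hcov (orbit ↥N a) (mem_orbit_self a) hB hcl'
    have h2 := harith I (by rw [← e2]; exact h1)
    rw [e1]
    exact block_ends P haΩ hcov hsub I h2
  · intro N hN h
    apply hfaith N hN
    intro k hk x hx
    rw [← hO] at hx
    obtain ⟨g, rfl⟩ := hx
    have hk2 : g⁻¹ * k * g ∈ N := by
      have := hN.conj_mem k hk g⁻¹
      simpa using this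
    have h3 : ((⟨g⁻¹ * k * g, hk2⟩ : ↥N) • a) ∈ orbit ↥N a := ⟨_, rfl⟩
    rw [h] at h3
    have h4 : (g⁻¹ * k * g) • a = a := h3
    show k • g • a = g • a
    have h5 : k • g • a = g • (g⁻¹ * k * g) • a := by
      simp [mul_smul]
    rw [h5, h4]
  · intro K hK h g hg
    exact hgen K hK h g hg

/-- A normal subgroup meeting a simple group nontrivially contains it. -/
theorem le_of_simple {Ga : Subgroup ↥Co0} [IsSimpleGroup ↥Ga] {K : Subgroup ↥Co0} (hn : ∀ g ∈ Ga, ∀ k ∈ K, g * k * g⁻¹ ∈ K)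
    {y : ↥Co0} (hy : y ∈ Ga) (hK : y ∈ K) (hne : y ≠ 1) : Ga ≤ K := by
  have hN : (K.subgroupOf Ga).Normal := ⟨fun k hk g => by
    rw [Subgroup.mem_subgroupOf] at hk ⊢
    exact hn g.1 g.2 k.1 hk⟩
  rcases hN.eq_bot_or_eq_top with h | h
  · exfalso
    have : (⟨y, hy⟩ : ↥Ga) ∈ K.subgroupOf Ga := hK
    rw [h, Subgroup.mem_bot] at this
    exact hne (congrArg Subtype.val this)
  · intro g hg
    have : (⟨g, hg⟩ : ↥Ga) ∈ K.subgroupOf Ga := by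
      rw [h]
      exact Subgroup.mem_top _
    exact this

/-- The criterion when the point stabiliser is known to be simple. -/
theorem simple_from_sub (Gs : Subgroup ↥Co0) {p : ℕ} [Fact p.Prime] (a : ↥leechLattice)
    (Ω : Set ↥leechLattice) (hO : orbit ↥Gs a = Ω) (hdvd : p ∣ Ω.ncard) (hpp : ¬ p ^ 2 ∣ Nat.card ↥Gs)
    {r : ℕ} (P : Fin r → Set ↥leechLattice) (n : Fin r → ℕ) (hn : ∀ i, (P i).ncard = n i) (hf : ∀ i, (P i).Finite)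
    (hd : ∀ i j, i ≠ j → Disjoint (P i) (P j)) (hna : ∀ i, a ∉ P i) (hcov : ∀ x ∈ Ω, x = a ∨ ∃ i, x ∈ P i)
    (hsub : ∀ i, P i ⊆ Ω) (hcl : ∀ i, ∀ x ∈ P i, ∀ y ∈ P i, ∃ g ∈ Gs, g • a = a ∧ g • x = y)
    (harith : ∀ I : Finset (Fin r), (1 + ∑ i ∈ I, n i) ∣ Ω.ncard → I = ∅ ∨ I = Finset.univ)
    (Ga : Subgroup ↥Co0) [IsSimpleGroup ↥Ga] (hGa : ∀ g : ↥Co0, g ∈ Ga ↔ g ∈ Gs ∧ g • a = a)
    {y x u : ↥Co0} (hy : y ∈ Ga) (hy1 : y ≠ 1) (hx : x ∈ Gs) (hu : u ∈ Gs) (hxo : orderOf x = p) (huo : orderOf u = p)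
    (hyxu : y * x = u) (hmove : ∃ g ∈ Ga, ∃ z ∈ Ω, g • z ≠ z) : IsSimpleGroup ↥Gs := by
  have hGs1 : Ga ≤ Gs := fun g hg => ((hGa g).1 hg).1
  have : Nontrivial ↥Gs := ⟨⟨⟨y, hGs1 hy⟩, 1, fun h => hy1 (congrArg Subtype.val h)⟩⟩
  refine simple_concrete Gs a Ω hO hdvd hpp P n hn hf hd hna hcov hsub hcl harith ?_ ?_
  · intro N hN hfix
    by_contra hne
    obtain ⟨k, hk1⟩ := (Subgroup.ne_bot_iff_exists_ne_one).1 hne
    have haΩ : a ∈ Ω := by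
      rw [← hO]
      exact mem_orbit_self a
    have hk2 : Ga ≤ N.map Gs.subtype := by
      apply le_of_simple (y := k.1.1)
      · rintro g hg _ ⟨l, hl, rfl⟩
        refine ⟨(⟨g, hGs1 hg⟩ : ↥Gs) * l * (⟨g, hGs1 hg⟩ : ↥Gs)⁻¹, hN.conj_mem l hl _, rfl⟩
      · exact (hGa _).2 ⟨k.1.2, hfix k.1 k.2 a haΩ⟩
      · exact ⟨k.1, k.2, rfl⟩
      · intro h
        apply hk1
        exact Subtype.ext (Subtype.ext h)
    obtain ⟨g, hg, z, hz, hne2⟩ := hmove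
    obtain ⟨l, hl, rfl⟩ := hk2 hg
    exact hne2 (hfix l hl z hz)
  · intro K hK h g hg
    have h1 : (⟨x, hx⟩ : ↥Gs) ∈ K := h _ (by rw [Subgroup.orderOf_mk]; exact hxo)
    have h2 : (⟨u, hu⟩ : ↥Gs) ∈ K := h _ (by rw [Subgroup.orderOf_mk]; exact huo)
    have h3 : Ga ≤ K.map Gs.subtype := by
      apply le_of_simple (y := y)
      · rintro g hg _ ⟨l, hl, rfl⟩
        exact ⟨(⟨g, hGs1 hg⟩ : ↥Gs) * l * (⟨g, hGs1 hg⟩ : ↥Gs)⁻¹, hK.conj_mem l hl _, rfl⟩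
      · exact hy
      · refine ⟨(⟨u, hu⟩ : ↥Gs) * (⟨x, hx⟩ : ↥Gs)⁻¹, K.mul_mem h2 (K.inv_mem h1), ?_⟩
        show u * x⁻¹ = y
        rw [← hyxu]
        group
      · exact hy1
    obtain ⟨l, hl, e⟩ := h3 ((hGa g.1).2 ⟨g.2, hg⟩)
    have : l = g := Subtype.ext e
    rwa [← this]

end Cfsg.Agent.Lib.LeechP
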