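/-
Searches among packed vectors: moves by matrices and sign changes, with a reduction by sign changes.
-/
import Cfsg.Agent.Lib.LeechP.CoMat
import Cfsg.Agent.Lib.LeechP.Trie

set_option autoImplicit false

namespace Cfsg.Agent.Lib.LeechP

open Cfsg Cfsg.Agent.Lib.Golay Cfsg.Agent.Lib.Golay.Leech Cfsg.Agent.Lib.LeechX Cfsg.Agent.Lib.M24

/-! ### The fixer of a list of numbers -/

/-- The automorphisms fixing all vectors of a list of numbers. -/
def Fx (L : List ℕ) : Subgroup ↥Co0 where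
  carrier := {g | ∀ m ∈ L, ∀ hm : dec m ∈ leechLattice, g.1 ⟨dec m, hm⟩ = ⟨dec m, hm⟩}
  one_mem' := fun _ _ _ => rfl
  mul_mem' := by
    intro a b ha hb m hm hd
    show a.1 (b.1 ⟨dec m, hd⟩) = _
    rw [hb m hm hd, ha m hm hd]
  inv_mem' := by
    intro a ha m hm hd
    have := ha m hm hd
    show a.1⁻¹ ⟨dec m, hd⟩ = _
    rw [Equiv.Perm.inv_eq_iff_eq]
    exact this.symm

/-- The orbit relation. -/
def InOrb (H : Subgroup ↥Co0) (x0 : ↥leechLattice) (y : GolayPt → ℤ) : Prop :=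
  ∃ h ∈ H, (h.1 x0).1 = y

/-- The property of a number in a search. -/
def PO (H : Subgroup ↥Co0) (x0 : ↥leechLattice) (n : ℕ) : Prop := Val n ∧ InOrb H x0 (dec n)

lemma abs_le_of_sqNorm {y : GolayPt → ℤ} (h : sqNorm y ≤ 256) (p : GolayPt) : |y p| ≤ 16 := by
  have h1 : y p ^ 2 ≤ sqNorm y := by
    rw [sqNorm]
    exact Finset.single_le_sum (f := fun i => y i ^ 2) (fun i _ => sq_nonneg _) (Finset.mem_univ p)
  have h2 : y p ^ 2 ≤ 16 ^ 2 := by linarith
  exact abs_le_of_sq_le_sq' h2 (by norm_num) |> abs_le.2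

/-- Applying a matrix to a packed lattice vector. -/
lemma evalM_spec {R : List Row} (hR : rowsOK R = true) {g : ↥Co0} (hg : CoAct R g) {n : ℕ} (hn : Val n)
    (hd : dec n ∈ leechLattice) (hb : sqNorm (dec n) ≤ 256) :
    Val (evalM R n) ∧ dec (evalM R n) = (g.1 ⟨dec n, hd⟩).1 := by
  apply eval_spec hR hn
  · intro p
    exact hg ⟨dec n, hd⟩ p
  · intro p
    apply abs_le_of_sqNorm
    rw [g.2.2]
    exact hb

/-- A matrix in a subgroup. -/
def MatOK (H : Subgroup ↥Co0) (R : List Row) : Prop := rowsOK R = true ∧ ∃ g ∈ H, CoAct R g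

/-- A sign change in a subgroup. -/
def FlipOK (H : Subgroup ↥Co0) (S : ℕ) : Prop :=
  ∃ c : ℕ, S = sprR c 24 ∧ ∃ hc : finOf c ∈ supports (golayCode : Set (GolayPt → ZMod 2)), signAut (finOf c) hc ∈ H

variable {H : Subgroup ↥Co0} {x0 : ↥leechLattice}

lemma po_norm {n : ℕ} (hx0 : sqNorm x0.1 ≤ 256) (h : PO H x0 n) : ∃ hd : dec n ∈ leechLattice, sqNorm (dec n) ≤ 256 := by
  obtain ⟨-, g, -, hg⟩ := h
  rw [← hg]
  refine ⟨(g.1 x0).2, ?_⟩
  rw [g.2.2]
  exact hx0

lemma po_mat (hx0 : sqNorm x0.1 ≤ 256) {R : List Row} (hR : MatOK H R) {n : ℕ} (h : PO H x0 n) : PO H x0 (evalM R n) := by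
  obtain ⟨hd, hb⟩ := po_norm hx0 h
  obtain ⟨hv, k, hk, hkk⟩ := h
  obtain ⟨hr, g, hg, hgg⟩ := hR
  have h1 := evalM_spec hr hgg hv hd hb
  refine ⟨h1.1, g * k, H.mul_mem hg hk, ?_⟩
  rw [h1.2]
  show (g.1 (k.1 x0)).1 = _
  congr 2
  exact Subtype.ext hkk

lemma po_flip {S : ℕ} (hS : FlipOK H S) {n : ℕ} (h : PO H x0 n) : PO H x0 (flipS S n) := by
  obtain ⟨c, rfl, hc, hm⟩ := hS
  obtain ⟨hv, k, hk, hkk⟩ := h
  have h1 := flipS_spec (c := c) hv
  refine ⟨h1.1, signAut (finOf c) hc * k, H.mul_mem hm hk, ?_⟩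
  rw [h1.2]
  funext p
  show ((signAut (finOf c) hc).1 (k.1 x0)).1 p = _
  rw [signAut_coe, hkk]
  simp only [mem_finOf]

lemma flip_flip {S : ℕ} (hS : ∃ c : ℕ, S = sprR c 24) {n : ℕ} (hn : Val n) : Val (flipS S (flipS S n)) ∧ dec (flipS S (flipS S n)) = dec n := by
  obtain ⟨c, rfl⟩ := hS
  have h1 := flipS_spec (c := c) hn
  have h2 := flipS_spec (c := c) h1.1
  refine ⟨h2.1, ?_⟩
  rw [h2.2, h1.2]
  funext p
  by_cases hp : c.testBit (idx p)
  · simp [hp]
  · simp [hp]

/-- Undoing a sign change. -/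
lemma po_unflip {S : ℕ} (hS : FlipOK H S) {n : ℕ} (hn : Val n) (h : PO H x0 (flipS S n)) : PO H x0 n := by
  have h1 := po_flip hS h
  have h2 := flip_flip (S := S) (by obtain ⟨c, hc, -⟩ := hS; exact ⟨c, hc⟩) hn
  exact ⟨hn, by rw [← h2.2]; exact h1.2⟩

/-! ### Numbers with a salt

The low bits of a number carry a mixture of the number, which keeps the caches of the kernel usable. -/

/-- A number with a salt. -/
def saltN (n : ℕ) : ℕ := Nat.add (Nat.mul n 4294967296) (Nat.mod n 4294967291)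

/-- The number under a salt. -/
def un (m : ℕ) : ℕ := Nat.shiftRight m 32

lemma un_salt (n : ℕ) : un (saltN n) = n := by
  show (n * 4294967296 + n % 4294967291) >>> 32 = n
  rw [Nat.shiftRight_eq_div_pow]
  have h : n % 4294967291 < 4294967291 := Nat.mod_lt _ (by norm_num)
  norm_num
  omega

/-- The test for a negative field. -/
def negB (s n : ℕ) : ℕ := Nat.land (Nat.shiftRight n s) 1

/-- One step of the reduction. -/
noncomputable def nfS (q : ℕ × ℕ) (m : ℕ) : ℕ :=
  Nat.rec (motive := fun _ => ℕ) (saltN (flipS q.2 (un m))) (fun _ _ => m) (negB q.1 (un m))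

/-- The reduction. -/
noncomputable def nfL (l : List (ℕ × ℕ)) : ℕ → ℕ :=
  List.rec (motive := fun _ => ℕ → ℕ) (fun n => n) (fun q _ ih n => forceN (nfS q n) ih) l

lemma nfL_nil (n : ℕ) : nfL [] n = n := rfl

lemma nfL_cons (q : ℕ × ℕ) (l : List (ℕ × ℕ)) (n : ℕ) : nfL (q :: l) n = nfL l (nfS q n) := by
  have e : nfL (q :: l) n = forceN (nfS q n) (nfL l) := rfl
  rw [e, forceN_eq]

lemma nfS_cases (q : ℕ × ℕ) (n : ℕ) : nfS q n = n ∨ nfS q n = saltN (flipS q.2 (un n)) := by
  unfold nfS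
  cases negB q.1 (un n) with
  | zero => exact Or.inr rfl
  | succ k => exact Or.inl rfl

lemma po_nfL {l : List (ℕ × ℕ)} (hl : ∀ q ∈ l, FlipOK H q.2) {n : ℕ} (h : PO H x0 (un n)) : PO H x0 (un (nfL l n)) := by
  induction l generalizing n with
  | nil => exact h
  | cons q l ih =>
    rw [nfL_cons]
    apply ih (fun q' hq' => hl q' (List.mem_cons_of_mem _ hq'))
    rcases nfS_cases q n with e | e
    · rw [e]; exact h
    · rw [e, un_salt]; exact po_flip (hl q (List.mem_cons_self ..)) h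

lemma val_flip {S : ℕ} (hS : ∃ c : ℕ, S = sprR c 24) {n : ℕ} (hn : Val n) : Val (flipS S n) := by
  obtain ⟨c, rfl⟩ := hS
  exact (flipS_spec hn).1

lemma po_of_nfL {l : List (ℕ × ℕ)} (hl : ∀ q ∈ l, FlipOK H q.2) {n : ℕ} (hn : Val (un n)) (h : PO H x0 (un (nfL l n))) : PO H x0 (un n) := by
  induction l generalizing n with
  | nil => exact h
  | cons q l ih =>
    rw [nfL_cons] at h
    have hq := hl q (List.mem_cons_self ..)
    rcases nfS_cases q n with e | e
    · rw [e] at h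
      exact ih (fun q' hq' => hl q' (List.mem_cons_of_mem _ hq')) hn h
    · rw [e] at h
      have hv := val_flip (S := q.2) (by obtain ⟨c, hc, -⟩ := hq; exact ⟨c, hc⟩) hn
      have h2 := ih (fun q' hq' => hl q' (List.mem_cons_of_mem _ hq')) (by rwa [un_salt]) h
      rw [un_salt] at h2
      exact po_unflip hq hn h2

/-- A move of a search. -/
inductive Mv : Type
  | mat (R : List Row) : Mv
  | flp (S : ℕ) : Mv

/-- The action of a move, followed by the reduction. -/
noncomputable def actMv (l : List (ℕ × ℕ)) : Mv → ℕ → ℕ :=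
  fun T n => Mv.rec (motive := fun _ => ℕ) (fun R => forceN (saltN (evalM R (un n))) (nfL l))
    (fun S => forceN (saltN (flipS S (un n))) (nfL l)) T

/-- A good move. -/
def MvOK (H : Subgroup ↥Co0) : Mv → Prop
  | Mv.mat R => MatOK H R
  | Mv.flp S => FlipOK H S

lemma po_act (hx0 : sqNorm x0.1 ≤ 256) {l : List (ℕ × ℕ)} (hl : ∀ q ∈ l, FlipOK H q.2) {T : Mv} (hT : MvOK H T) {n : ℕ}
    (h : PO H x0 (un n)) : PO H x0 (un (actMv l T n)) := by
  cases T with
  | mat R =>
    show PO H x0 (un (forceN (saltN (evalM R (un n))) (nfL l)))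
    rw [forceN_eq]
    apply po_nfL hl
    rw [un_salt]
    exact po_mat hx0 hT h
  | flp S =>
    show PO H x0 (un (forceN (saltN (flipS S (un n))) (nfL l)))
    rw [forceN_eq]
    apply po_nfL hl
    rw [un_salt]
    exact po_flip hT h

/-- The soundness of a search. -/
theorem reach_sound (hx0 : sqNorm x0.1 ≤ 256) {l : List (ℕ × ℕ)} (hl : ∀ q ∈ l, FlipOK H q.2) {gens : List Mv}
    (hg : ∀ T ∈ gens, MvOK H T) {fuel n0 n : ℕ} (hn0 : Val n0) (hd0 : dec n0 = x0.1) (hn : Val n)
    (h : inT (orbitT (actMv l) gens fuel (saltN n0)) (nfL l (saltN n)) = true) : InOrb H x0 (dec n) := by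
  have h0 : PO H x0 (un (saltN n0)) := by
    rw [un_salt]
    exact ⟨hn0, 1, H.one_mem, hd0.symm⟩
  have h1 := orbitT_sound (P := fun m => PO H x0 (un m)) (fun T hT x hx => po_act hx0 hl (hg T hT) hx) h0 h
  have h2 := po_of_nfL hl (n := saltN n) (by rwa [un_salt]) h1
  rw [un_salt] at h2
  exact h2.2

/-! ### Checks of moves -/

/-- Good fixed vectors. -/
def GoodL (L : List ℕ) : Prop := ∀ m ∈ L, Val m ∧ sqNorm (dec m) ≤ 256

/-- The test of a fixed vector. -/
noncomputable def goodB (m : ℕ) : Bool :=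
  valB m && Nat.ble (Nat.add (coefP (revP m) m) 6144) (Nat.add 256 (Nat.mul 32 (coefP onesP m)))

lemma good_of_goodB {m : ℕ} (h : goodB m = true) : Val m ∧ sqNorm (dec m) ≤ 256 := by
  simp only [goodB, Bool.and_eq_true] at h
  have hv := val_of_valB h.1
  refine ⟨hv, ?_⟩
  rw [sqNorm_dec_eq, dot_dec hv hv]
  have h2 := Nat.le_of_ble_eq_true h.2
  have h3 : coefP (revP m) m + 6144 ≤ 256 + 32 * coefP onesP m := h2
  have h4 : (coefP (revP m) m : ℤ) + 6144 ≤ 256 + 32 * coefP onesP m := by exact_mod_cast h3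
  linarith

/-- The test of a list of fixed vectors. -/
noncomputable def goodLB (L : List ℕ) : Bool := allL goodB L

lemma goodL_of (L : List ℕ) (h : goodLB L = true) : GoodL L := fun m hm => good_of_goodB (allL_spec h m hm)

/-- A matrix fixing some vectors. -/
noncomputable def matChk (L : List ℕ) (R R' : List Row) : Bool :=
  coOK R R' && allL (fun m => Nat.beq (evalM R m) m) L

theorem matOK_of_chk {L : List ℕ} (hL : GoodL L) {R R' : List Row} (h : matChk L R R' = true) : MatOK (Fx L) R := by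
  simp only [matChk, Bool.and_eq_true] at h
  obtain ⟨g, hg, -⟩ := exists_co h.1
  have hR : rowsOK R = true := by
    have := h.1
    simp only [coOK, Bool.and_eq_true] at this
    exact this.1.1.1.1.1.1
  refine ⟨hR, g, ?_, hg⟩
  intro m hm hd
  have h1 := Nat.eq_of_beq_eq_true (allL_spec h.2 m hm)
  have h2 := evalM_spec hR hg (hL m hm).1 hd (hL m hm).2
  rw [h1] at h2
  exact Subtype.ext h2.2.symm

/-- The mask of a spread number. -/
def unspr (S : ℕ) : ℕ → ℕ
  | 0 => 0
  | k + 1 => Nat.add (unspr S k) (Nat.mul (fld S k) (Nat.pow 2 k))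

/-- The check of a sign change fixing some vectors. -/
noncomputable def flipChkC (L : List ℕ) (c S : ℕ) : Bool :=
  isCodeMask c && Nat.beq S (sprR c 24) && allL (fun m => Nat.beq (flipS S m) m) L

noncomputable def flipChk (L : List ℕ) (S : ℕ) : Bool := flipChkC L (unspr S 24) S

theorem flipOK_of_chk {L : List ℕ} (hL : GoodL L) {S : ℕ} (h : flipChk L S = true) : FlipOK (Fx L) S := by
  simp only [flipChk, flipChkC, Bool.and_eq_true] at h
  obtain ⟨⟨h1, h2⟩, h3⟩ := h
  set c := unspr S 24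
  have hc : finOf c ∈ supports (golayCode : Set (GolayPt → ZMod 2)) :=
    ⟨wordOf c, isCodeMask_sound h1, support_wordOf c⟩
  have hS : S = sprR c 24 := Nat.eq_of_beq_eq_true h2
  refine ⟨c, hS, hc, ?_⟩
  intro m hm hd
  have h4 := Nat.eq_of_beq_eq_true (allL_spec h3 m hm)
  apply Subtype.ext
  funext p
  rw [hS] at h4
  have h5 := (flipS_spec (c := c) (hL m hm).1).2
  rw [h4] at h5
  show (if p ∈ finOf c then -dec m p else dec m p) = dec m p
  have h6 := congrFun h5 p
  simp only [mem_finOf]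
  exact h6.symm

/-- The transposed rows. -/
noncomputable def trR (R : List Row) : List Row :=
  List.map (fun i =>
    forceN (pr (fun j => fld (R.getD j (0, 0)).1 (23 - i)) 24) (fun a => (a, Nat.mul 16 (coefP a onesP))))
    (List.range 24)

/-- The check of a move. -/
noncomputable def mvChk (L : List ℕ) (T : Mv) : Bool :=
  Mv.rec (motive := fun _ => Bool) (fun R => matChk L R (trR R)) (fun S => flipChk L S) T

theorem mvOK_of_chk {L : List ℕ} (hL : GoodL L) {T : Mv} (h : mvChk L T = true) : MvOK (Fx L) T := by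
  cases T with
  | mat R => exact matOK_of_chk hL h
  | flp S => exact flipOK_of_chk hL h

/-- The check of a search system. -/
noncomputable def sysChk (L : List ℕ) (gens : List Mv) (nf : List (ℕ × ℕ)) : Bool :=
  goodLB L && allL (mvChk L) gens && allL (fun q => flipChk L q.2) nf

/-- The consequence for a search. -/
theorem reach_of_sys {L : List ℕ} {gens : List Mv} {nf : List (ℕ × ℕ)} (hS : sysChk L gens nf = true)
    {x0 : ↥leechLattice} (hx0 : sqNorm x0.1 ≤ 256) {fuel n0 n : ℕ} (hn0 : Val n0) (hd0 : dec n0 = x0.1) (hn : Val n)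
    (h : inT (orbitT (actMv nf) gens fuel (saltN n0)) (nfL nf (saltN n)) = true) : InOrb (Fx L) x0 (dec n) := by
  simp only [sysChk, Bool.and_eq_true] at hS
  obtain ⟨⟨h1, h2⟩, h3⟩ := hS
  have hL := goodL_of L h1
  exact reach_sound hx0 (fun q hq => flipOK_of_chk hL (allL_spec h3 q hq))
    (fun T hT => mvOK_of_chk hL (allL_spec h2 T hT)) hn0 hd0 hn h

end Cfsg.Agent.Lib.LeechP
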