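/-
The minimal vectors of the rank-24 lattice: the three shapes and an enumeration by numbers.
-/
import Cfsg.Agent.Lib.LeechP.Reach
import Cfsg.Agent.Lib.Golay.LeechCount

set_option autoImplicit false

namespace Cfsg.Agent.Lib.LeechP

open Cfsg Cfsg.Agent.Lib.Golay Cfsg.Agent.Lib.Golay.Leech Cfsg.Agent.Lib.LeechX Cfsg.Agent.Lib.M24

/-! ### Shapes of the minimal vectors -/

lemma sq_eq_one_iff' {a : ℤ} (h : a ^ 2 = 1) : a = 1 ∨ a = -1 := by
  have : (a - 1) * (a + 1) = 0 := by ring_nf; linarith
  rcases mul_eq_zero.mp this with h1 | h1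
  · left; linarith
  · right; linarith

lemma sq_eq_nine_iff' {a : ℤ} (h : a ^ 2 = 9) : a = 3 ∨ a = -3 := by
  have : (a - 3) * (a + 3) = 0 := by ring_nf; linarith
  rcases mul_eq_zero.mp this with h1 | h1
  · left; linarith
  · right; linarith

/-- A sum of nonnegative multiples of a number `k` that equals `k` has exactly one nonzero term. -/
lemma sum_single {ι : Type*} [Fintype ι] [DecidableEq ι] (t : ι → ℤ) {k : ℤ} (hk : 0 < k) (h0 : ∀ i, 0 ≤ t i) (hd : ∀ i, k ∣ t i)
    (hs : ∑ i, t i = k) : ∃ p, t p = k ∧ ∀ i, i ≠ p → t i = 0 := by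
  have hex : ∃ p, t p ≠ 0 := by
    by_contra hn
    push Not at hn
    rw [Finset.sum_eq_zero (fun i _ => hn i)] at hs
    omega
  obtain ⟨p, hp⟩ := hex
  have h1 : k ≤ t p := by
    obtain ⟨c, hc⟩ := hd p
    have h2 : 0 < t p := lt_of_le_of_ne (h0 p) (Ne.symm hp)
    rw [hc] at h2 ⊢
    have h3 : 0 < c := by
      by_contra h4
      push Not at h4
      have := mul_nonpos_of_nonneg_of_nonpos hk.le h4
      omega
    nlinarith
  have h2 := Finset.add_sum_erase Finset.univ t (Finset.mem_univ p)
  have h3 : 0 ≤ ∑ i ∈ Finset.univ.erase p, t i := Finset.sum_nonneg (fun i _ => h0 i)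
  have h4 : t p = k := by omega
  have h5 : ∑ i ∈ Finset.univ.erase p, t i = 0 := by omega
  refine ⟨p, h4, fun i hi => ?_⟩
  exact (Finset.sum_eq_zero_iff_of_nonneg (fun i _ => h0 i)).mp h5 i (Finset.mem_erase.mpr ⟨hi, Finset.mem_univ i⟩)

/-- The odd minimal vectors. -/
theorem shape_odd {x : GolayPt → ℤ} (hx : ∀ i, x i % 2 = 1) (hn : sqNorm x = 32) :
    ∃ p, (x p = 3 ∨ x p = -3) ∧ ∀ i, i ≠ p → (x i = 1 ∨ x i = -1) := by
  have h8 : ∀ i, (8 : ℤ) ∣ x i ^ 2 - 1 := by
    intro i
    have h1 := hx i
    obtain ⟨k, hk⟩ : ∃ k, x i = 2 * k + 1 := ⟨x i / 2, by omega⟩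
    rw [hk]
    have h2 : (2 : ℤ) ∣ k * (k + 1) := Int.even_mul_succ_self k |>.two_dvd
    obtain ⟨c, hc⟩ := h2
    exact ⟨c, by nlinarith⟩
  have h0 : ∀ i, 0 ≤ x i ^ 2 - 1 := by
    intro i
    have h1 := hx i
    have h2 : x i ≠ 0 := by
      intro h3
      rw [h3] at h1
      norm_num at h1
    have h3 : 0 < x i ^ 2 := by positivity
    omega
  have hs : ∑ i, (x i ^ 2 - 1) = 8 := by
    rw [Finset.sum_sub_distrib]
    have : ∑ i, x i ^ 2 = 32 := hn
    rw [this]
    simp [card_golayPt]
  obtain ⟨p, hp, hi⟩ := sum_single _ (by norm_num) h0 h8 hs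
  refine ⟨p, sq_eq_nine_iff' (by linarith), fun i hne => ?_⟩
  have := hi i hne
  exact sq_eq_one_iff' (by linarith)

/-- The even minimal vectors whose halves are all even. -/
theorem shape_four {x : GolayPt → ℤ} (hx : ∀ i, x i % 4 = 0) (hn : sqNorm x = 32) :
    ∃ p q, p ≠ q ∧ (x p = 4 ∨ x p = -4) ∧ (x q = 4 ∨ x q = -4) ∧ ∀ i, i ≠ p → i ≠ q → x i = 0 := by
  classical
  have h0 : ∀ i, 0 ≤ x i ^ 2 := fun i => sq_nonneg _
  have h16 : ∀ i, (16 : ℤ) ∣ x i ^ 2 := by
    intro i
    obtain ⟨k, hk⟩ : ∃ k, x i = 4 * k := ⟨x i / 4, by have := hx i; omega⟩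
    rw [hk]
    exact ⟨k ^ 2, by ring⟩
  have hs : ∑ i, x i ^ 2 = 32 := hn
  have hex : ∃ p, x p ^ 2 ≠ 0 := by
    by_contra hne
    push Not at hne
    rw [Finset.sum_eq_zero (fun i _ => hne i)] at hs
    omega
  obtain ⟨p, hp⟩ := hex
  have hp16 : 16 ≤ x p ^ 2 := by
    obtain ⟨c, hc⟩ := h16 p
    have h2 : 0 < x p ^ 2 := lt_of_le_of_ne (h0 p) (Ne.symm hp)
    omega
  have h2 := Finset.add_sum_erase Finset.univ (fun i => x i ^ 2) (Finset.mem_univ p)
  have hex2 : ∃ q, q ≠ p ∧ x q ^ 2 ≠ 0 := by
    by_contra hne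
    push Not at hne
    have h3 : ∑ i ∈ Finset.univ.erase p, x i ^ 2 = 0 :=
      Finset.sum_eq_zero (fun i hi => hne i (Finset.mem_erase.mp hi).1)
    rw [h3] at h2
    have h4 : x p ^ 2 = 32 := by
      simp only [add_zero] at h2
      omega
    have h5 : |x p| < 6 := abs_lt_of_sq_lt_sq (by rw [h4]; norm_num) (by norm_num)
    obtain ⟨h6, h7⟩ := abs_lt.mp h5
    generalize x p = a at h4 h6 h7
    interval_cases a <;> norm_num at h4
  obtain ⟨q, hqp, hq⟩ := hex2
  have hq16 : 16 ≤ x q ^ 2 := by
    obtain ⟨c, hc⟩ := h16 q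
    have h3 : 0 < x q ^ 2 := lt_of_le_of_ne (h0 q) (Ne.symm hq)
    omega
  have h3 := Finset.add_sum_erase (Finset.univ.erase p) (fun i => x i ^ 2) (Finset.mem_erase.mpr ⟨hqp, Finset.mem_univ q⟩)
  have h4 : 0 ≤ ∑ i ∈ (Finset.univ.erase p).erase q, x i ^ 2 := Finset.sum_nonneg (fun i _ => h0 i)
  have h5 : x p ^ 2 + x q ^ 2 + ∑ i ∈ (Finset.univ.erase p).erase q, x i ^ 2 = 32 := by
    have h2' : x p ^ 2 + ∑ i ∈ Finset.univ.erase p, x i ^ 2 = ∑ i, x i ^ 2 := h2
    have h3' : x q ^ 2 + ∑ i ∈ (Finset.univ.erase p).erase q, x i ^ 2 = ∑ i ∈ Finset.univ.erase p, x i ^ 2 := h3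
    linarith
  have h6 : x p ^ 2 = 16 := by omega
  have h7 : x q ^ 2 = 16 := by omega
  have h8 : ∑ i ∈ (Finset.univ.erase p).erase q, x i ^ 2 = 0 := by omega
  have hsq16 : ∀ a : ℤ, a ^ 2 = 16 → a = 4 ∨ a = -4 := by
    intro a ha
    have : (a - 4) * (a + 4) = 0 := by ring_nf; linarith
    rcases mul_eq_zero.mp this with h1 | h1
    · left; linarith
    · right; linarith
  refine ⟨p, q, Ne.symm hqp, hsq16 _ h6, hsq16 _ h7, fun i hip hiq => ?_⟩
  have h9 := (Finset.sum_eq_zero_iff_of_nonneg (fun i _ => h0 i)).mp h8 i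
    (Finset.mem_erase.mpr ⟨hiq, Finset.mem_erase.mpr ⟨hip, Finset.mem_univ i⟩⟩)
  exact pow_eq_zero_iff (by norm_num) |>.mp h9

/-- Halves of even numbers. -/
lemma bit_half {a : ℤ} (h : a % 2 = 0) : ((a / 2 : ℤ) : ZMod 2) = 0 ↔ a % 4 = 0 := by
  rw [cast_eq_zero_iff]
  omega

/-- The even minimal vectors with a word of weight eight. -/
theorem shape_octad {x : GolayPt → ℤ} (hx : ∀ i, x i % 2 = 0) (hn : sqNorm x = 32)
    (hc : (support₂ (bitv x)).card = 8) :
    ∀ i, (i ∈ support₂ (bitv x) → (x i = 2 ∨ x i = -2)) ∧ (i ∉ support₂ (bitv x) → x i = 0) := by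
  classical
  set O := support₂ (bitv x) with hO
  have hmem : ∀ i, i ∈ O ↔ x i % 4 ≠ 0 := by
    intro i
    have h1 : i ∈ O ↔ bitv x i ≠ 0 := by simp [hO, support₂]
    rw [h1, Ne, show bitv x i = ((x i / 2 : ℤ) : ZMod 2) from rfl, bit_half (hx i)]
  -- terms
  let t : GolayPt → ℤ := fun i => x i ^ 2 - (if i ∈ O then 4 else 0)
  have ht0 : ∀ i, 0 ≤ t i := by
    intro i
    simp only [t]
    split_ifs with h
    · have h1 := (hmem i).mp h
      have h2 := hx i
      have h3 : 2 ≤ |x i| := by
        rw [abs_eq_max_neg, max_def]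
        split_ifs <;> omega
      have h4 : 4 ≤ x i ^ 2 := by
        have := sq_abs (x i)
        nlinarith
      omega
    · have := sq_nonneg (x i)
      omega
  have hs : ∑ i, t i = 0 := by
    simp only [t]
    rw [Finset.sum_sub_distrib]
    have h1 : ∑ i, x i ^ 2 = 32 := hn
    have h2 : ∑ i : GolayPt, (if i ∈ O then (4 : ℤ) else 0) = 32 := by
      rw [Finset.sum_ite_mem, Finset.univ_inter, Finset.sum_const, hc]
      norm_num
    rw [h1, h2]
    norm_num
  have hz := (Finset.sum_eq_zero_iff_of_nonneg (fun i _ => ht0 i)).mp hs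
  intro i
  have h1 := hz i (Finset.mem_univ i)
  simp only [t] at h1
  constructor
  · intro h
    rw [if_pos h] at h1
    have : (x i - 2) * (x i + 2) = 0 := by ring_nf; linarith
    rcases mul_eq_zero.mp this with h2 | h2
    · left; linarith
    · right; linarith
  · intro h
    rw [if_neg h] at h1
    have : x i ^ 2 = 0 := by linarith
    exact pow_eq_zero_iff (by norm_num) |>.mp this

/-! ### Changing fields of numbers -/

/-- A multiple of a power of the base. -/
def shW (c p : ℕ) : ℕ := Nat.shiftLeft c (Nat.mul 16 p)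

lemma shW_eq (c p : ℕ) : shW c p = c * W ^ p := by
  show c <<< (16 * p) = _
  rw [Nat.shiftLeft_eq, pow_mul]
  norm_num [W]

lemma addV {n p c : ℕ} (hn : Val n) (hp : p < 24) (hc : fld n p + c ≤ 32) :
    Val (n + shW c p) ∧ ∀ q : GolayPt, dec (n + shW c p) q = if idx q = p then dec n q + c else dec n q := by
  have e := pk_update_add (fld n) 24 p c hp
  rw [hn.eq_pk] at e
  rw [shW_eq, e]
  set f : ℕ → ℕ := fun i => if i = p then fld n i + c else fld n i with hf
  have hle : ∀ i < 24, f i ≤ 32 := by
    intro i hi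
    simp only [hf]
    split_ifs with h
    · subst h; exact hc
    · exact hn.le i hi
  have hW : ∀ i < 24, f i < W := fun i hi => lt_of_le_of_lt (hle i hi) (by norm_num [W])
  refine ⟨⟨pk_lt hW, fun i hi => ?_⟩, fun q => ?_⟩
  · rw [fld_pk hW hi]
    exact hle i hi
  · show ((fld (pk f 24) (idx q) : ℕ) : ℤ) - 16 = _
    rw [fld_pk hW (idx_lt q)]
    simp only [hf, dec]
    split_ifs
    · push_cast
      ring
    · rfl

lemma subV {n p c : ℕ} (hn : Val n) (hp : p < 24) (hc : c ≤ fld n p) :
    Val (n - shW c p) ∧ ∀ q : GolayPt, dec (n - shW c p) q = if idx q = p then dec n q - c else dec n q := by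
  have e := pk_update_sub (fld n) 24 p c hp hc
  rw [hn.eq_pk] at e
  rw [shW_eq, e]
  set f : ℕ → ℕ := fun i => if i = p then fld n i - c else fld n i with hf
  have hle : ∀ i < 24, f i ≤ 32 := by
    intro i hi
    simp only [hf]
    have := hn.le i hi
    split_ifs <;> omega
  have hW : ∀ i < 24, f i < W := fun i hi => lt_of_le_of_lt (hle i hi) (by norm_num [W])
  refine ⟨⟨pk_lt hW, fun i hi => ?_⟩, fun q => ?_⟩
  · rw [fld_pk hW hi]
    exact hle i hi
  · show ((fld (pk f 24) (idx q) : ℕ) : ℤ) - 16 = _
    rw [fld_pk hW (idx_lt q)]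
    simp only [hf, dec]
    split_ifs with h
    · subst h
      rw [Nat.cast_sub hc]
      ring
    · rfl

lemma val_of_F {f : ℕ → ℕ} (h : ∀ i < 24, f i ≤ 32) : Val (ofF f) ∧ ∀ i < 24, fld (ofF f) i = f i := by
  have hW : ∀ i < 24, f i < W := fun i hi => lt_of_le_of_lt (h i hi) (by norm_num [W])
  have hf : ∀ i < 24, fld (ofF f) i = f i := fun i hi => fld_pk hW hi
  refine ⟨⟨pk_lt hW, fun i hi => ?_⟩, hf⟩
  rw [hf i hi]
  exact h i hi

/-- A number with prescribed values. -/
lemma dec_of_fields {n : ℕ} {x : GolayPt → ℤ} (h : ∀ q, (fld n (idx q) : ℤ) - 16 = x q) : dec n = x := by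
  funext q
  exact h q

/-- The number of a vector. -/
noncomputable def enc (x : GolayPt → ℤ) : ℕ → ℕ := fun i => (x (pt i) + 16).toNat

/-! ### The enumeration -/

/-- The number of the zero vector. -/
def zeroN : ℕ := ofF fun _ => 16

lemma val_zeroN : Val zeroN := (val_of_F (fun _ _ => by norm_num)).1

lemma dec_zeroN : dec zeroN = 0 := by
  funext p
  show ((fld zeroN (idx p) : ℕ) : ℤ) - 16 = 0
  rw [zeroN, (val_of_F (fun _ _ => by norm_num)).2 _ (idx_lt p)]
  norm_num

/-- The pairs of indices. -/
def pairsL : List (ℕ × ℕ) := (List.range 24).flatMap fun j => (List.range j).map fun i => (i, j)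

/-- The vectors with two nonzero coordinates at given places. -/
def fourL (ij : ℕ × ℕ) : List ℕ :=
  [zeroN + shW 4 ij.1 + shW 4 ij.2, (zeroN + shW 4 ij.1) - shW 4 ij.2,
    (zeroN - shW 4 ij.1) + shW 4 ij.2, (zeroN - shW 4 ij.1) - shW 4 ij.2]

/-- The first list of vectors. -/
def listA : List ℕ := pairsL.flatMap fourL

/-- Places in a mask. -/
def posL (m : ℕ) : List ℕ := (List.range 24).filter fun i => m.testBit i

/-- Sign patterns. -/
def bList : List ℕ → ℕ → ℕ → List ℕ
  | [], n, par => Nat.rec [n] (fun _ _ => []) par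
  | p :: ps, n, par => bList ps n par ++ bList ps (n - shW 4 p) (1 - par)

/-- The number of a word, with twos. -/
def baseB (m : ℕ) : ℕ := ofF fun i => if m.testBit i then 18 else 16

/-- The second list of vectors. -/
def listB : List ℕ := octadL.flatMap fun m => bList (posL m) (baseB m) 0

/-- The number of all ones. -/
def oneN : ℕ := ofF fun _ => 17

/-- The number of signs given by a word. -/
def baseC (c : ℕ) : ℕ := flipS (sprR c 24) oneN

/-- A bit. -/
def bitAt (c i : ℕ) : ℕ := Nat.land (Nat.shiftRight c i) 1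

lemma bitAt_eq (c i : ℕ) : bitAt c i = (c.testBit i).toNat := by
  show (c >>> i) &&& 1 = _
  rw [Nat.and_one_is_mod, Nat.testBit]
  have h := Nat.mod_two_eq_zero_or_one (c >>> i)
  rcases h with h | h <;> simp [Nat.one_and_eq_mod_two, h]

/-- An odd vector. -/
noncomputable def cElt (n c p : ℕ) : ℕ :=
  Nat.rec (motive := fun _ => ℕ) (Nat.sub n (shW 4 p)) (fun _ _ => Nat.add n (shW 4 p)) (bitAt c p)

/-- The third list of vectors. -/
noncomputable def listC : List ℕ := codeL.flatMap fun c => (List.range 24).map (cElt (baseC c) c)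

/-- All vectors. -/
noncomputable def minL : List ℕ := listA ++ listB ++ listC

/-! ### Completeness of the enumeration -/

lemma mem_listA {x : GolayPt → ℤ} (hx : ∀ i, x i % 4 = 0) (hn : sqNorm x = 32) :
    ∃ n ∈ listA, Val n ∧ dec n = x := by
  obtain ⟨p, q, hpq, hp, hq, hrest⟩ := shape_four hx hn
  -- order the places
  wlog hlt : idx p < idx q generalizing p q
  · have h1 : idx p ≠ idx q := fun e => hpq (idx_injective e)
    exact this q p (Ne.symm hpq) hq hp (fun i h1 h2 => hrest i h2 h1) (by omega)
  have hmem : (idx p, idx q) ∈ pairsL := by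
    rw [pairsL, List.mem_flatMap]
    refine ⟨idx q, List.mem_range.2 (idx_lt q), List.mem_map.2 ⟨idx p, List.mem_range.2 hlt, rfl⟩⟩
  have hne : idx p ≠ idx q := by omega
  have hz : ∀ i, fld zeroN i = fld zeroN i := fun _ => rfl
  have hz16 : ∀ i < 24, fld zeroN i = 16 := fun i hi => (val_of_F (f := fun _ => 16) (fun _ _ => by norm_num)).2 i hi
  have hV := val_zeroN
  have hpl := idx_lt p
  have hql := idx_lt q
  -- the first step
  have step1 : ∀ n, Val n → (∀ r : GolayPt, dec n r = if r = p then x p else 0) → fld n (idx q) = 16 →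
      ∃ n' ∈ ([n + shW 4 (idx q), n - shW 4 (idx q)] : List ℕ), Val n' ∧ dec n' = x := by
    intro n hv hd hf
    rcases hq with hq' | hq'
    · refine ⟨n + shW 4 (idx q), by simp, (addV hv hql (by omega)).1, ?_⟩
      funext r
      rw [(addV hv hql (by omega)).2 r, hd r]
      by_cases hrq : r = q
      · subst hrq
        simp [Ne.symm hpq, hq']
      · have h3 : idx r ≠ idx q := fun e => hrq (idx_injective e)
        rw [if_neg h3]
        by_cases hrp : r = p
        · subst hrp; simp
        · rw [if_neg hrp, hrest r hrp hrq]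
    · refine ⟨n - shW 4 (idx q), by simp, (subV hv hql (by omega)).1, ?_⟩
      funext r
      rw [(subV hv hql (by omega)).2 r, hd r]
      by_cases hrq : r = q
      · subst hrq
        simp [Ne.symm hpq, hq']
      · have h3 : idx r ≠ idx q := fun e => hrq (idx_injective e)
        rw [if_neg h3]
        by_cases hrp : r = p
        · subst hrp; simp
        · rw [if_neg hrp, hrest r hrp hrq]
  have hfq : ∀ n, (∀ r : GolayPt, dec n r = if r = p then x p else 0) → fld n (idx q) = 16 := by
    intro n hd
    have := hd q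
    rw [if_neg (Ne.symm hpq)] at this
    have h5 : ((fld n (idx q) : ℕ) : ℤ) - 16 = 0 := this
    omega
  rcases hp with hp' | hp'
  · have hv1 := addV hV hpl (c := 4) (by rw [hz16 _ hpl]; norm_num)
    have hd1 : ∀ r : GolayPt, dec (zeroN + shW 4 (idx p)) r = if r = p then x p else 0 := by
      intro r
      rw [hv1.2 r, dec_zeroN, hp']
      by_cases hrp : r = p
      · subst hrp; simp
      · have h3 : idx r ≠ idx p := fun e => hrp (idx_injective e)
        simp [h3, hrp]
    obtain ⟨n', hn', hv', hd'⟩ := step1 _ hv1.1 hd1 (hfq _ hd1)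
    refine ⟨n', ?_, hv', hd'⟩
    rw [listA, List.mem_flatMap]
    refine ⟨_, hmem, ?_⟩
    simp only [List.mem_cons, List.not_mem_nil, or_false] at hn'
    rcases hn' with rfl | rfl <;> simp [fourL]
  · have hv1 := subV hV hpl (c := 4) (by rw [hz16 _ hpl]; norm_num)
    have hd1 : ∀ r : GolayPt, dec (zeroN - shW 4 (idx p)) r = if r = p then x p else 0 := by
      intro r
      rw [hv1.2 r, dec_zeroN, hp']
      by_cases hrp : r = p
      · subst hrp; simp
      · have h3 : idx r ≠ idx p := fun e => hrp (idx_injective e)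
        simp [h3, hrp]
    obtain ⟨n', hn', hv', hd'⟩ := step1 _ hv1.1 hd1 (hfq _ hd1)
    refine ⟨n', ?_, hv', hd'⟩
    rw [listA, List.mem_flatMap]
    refine ⟨_, hmem, ?_⟩
    simp only [List.mem_cons, List.not_mem_nil, or_false] at hn'
    rcases hn' with rfl | rfl <;> simp [fourL]

/-- Membership of a sign pattern. -/
lemma mem_bList {ps : List ℕ} (hnd : ps.Nodup) (hl : ∀ p ∈ ps, p < 24) {g : ℕ → ℕ} :
    ∀ {n par : ℕ}, Val n → par ≤ 1 → (∀ i < 24, i ∉ ps → g i = fld n i) →
      (∀ i ∈ ps, g i = fld n i ∨ g i + 4 = fld n i) →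
      (ps.filter (fun i => decide (g i ≠ fld n i))).length % 2 = par →
      ∃ n' ∈ bList ps n par, Val n' ∧ ∀ i < 24, fld n' i = g i := by
  induction ps with
  | nil =>
    intro n par hv _ h1 _ h3
    have hpar : par = 0 := by simpa using h3.symm
    subst hpar
    exact ⟨n, by simp [bList], hv, fun i hi => (h1 i hi (by simp)).symm⟩
  | cons p ps ih =>
    intro n par hv hpar h1 h2 h3
    have hnd2 := List.nodup_cons.1 hnd
    have hp := hl p (List.mem_cons_self ..)
    have hps : ∀ i ∈ ps, i ≠ p := fun i hi e => hnd2.1 (e ▸ hi)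
    rcases h2 p (List.mem_cons_self ..) with h4 | h4
    · obtain ⟨n', hm, h5⟩ := ih hnd2.2 (fun i hi => hl i (List.mem_cons_of_mem _ hi)) hv hpar
        (fun i hi hn => if hip : i = p then hip ▸ h4 else h1 i hi (by simp [hip, hn]))
        (fun i hi => h2 i (List.mem_cons_of_mem _ hi))
        (by
          rw [List.filter_cons_of_neg (by simpa using h4)] at h3
          exact h3)
      exact ⟨n', List.mem_append_left _ hm, h5⟩
    · have hc : 4 ≤ fld n p := by omega
      have hne : g p ≠ fld n p := by omega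
      have hs := subV hv hp hc
      have hf : ∀ i < 24, fld (n - shW 4 p) i = if i = p then fld n p - 4 else fld n i := by
        intro i hi
        have h6 := hs.2 (pt i)
        simp only [dec, idx_pt hi] at h6
        split_ifs with h7
        · subst h7
          rw [if_pos rfl] at h6
          omega
        · rw [if_neg h7] at h6
          omega
      have hfl : (ps.filter (fun i => decide (g i ≠ fld (n - shW 4 p) i))) =
          ps.filter (fun i => decide (g i ≠ fld n i)) := by
        apply List.filter_congr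
        intro i hi
        rw [hf i (hl i (List.mem_cons_of_mem _ hi)), if_neg (hps i hi)]
      obtain ⟨n', hm, h5⟩ := ih (n := n - shW 4 p) (par := 1 - par) hnd2.2 (fun i hi => hl i (List.mem_cons_of_mem _ hi)) hs.1 (by omega)
        (fun i hi hn => by
          rw [hf i hi]
          split_ifs with hip
          · subst hip; omega
          · exact h1 i hi (by simp [hip, hn]))
        (fun i hi => by
          rw [hf i (hl i (List.mem_cons_of_mem _ hi)), if_neg (hps i hi)]
          exact h2 i (List.mem_cons_of_mem _ hi))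
        (by
          rw [hfl]
          rw [List.filter_cons_of_pos (by simpa using hne), List.length_cons] at h3
          omega)
      exact ⟨n', List.mem_append_right _ hm, h5⟩

lemma sum_range_list (g : ℕ → ℤ) (k : ℕ) : ∑ j ∈ Finset.range k, g j = ((List.range k).map g).sum := by
  induction k with
  | zero => simp
  | succ k ih =>
    rw [Finset.sum_range_succ, ih, List.range_succ, List.map_append, List.sum_append]
    simp

lemma list_sum_filter (l : List ℕ) (P : ℕ → Bool) (g : ℕ → ℤ) (h : ∀ j ∈ l, P j = false → g j = 0) :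
    (l.map g).sum = ((l.filter P).map g).sum := by
  induction l with
  | nil => rfl
  | cons a l ih =>
    have ih' := ih (fun j hj => h j (List.mem_cons_of_mem _ hj))
    cases hP : P a with
    | true =>
      rw [List.filter_cons_of_pos hP]
      simp [ih']
    | false =>
      rw [List.filter_cons_of_neg (by simp [hP])]
      simp [ih', h a (List.mem_cons_self ..) hP]

lemma list_sign_sum (l : List ℕ) (g : ℕ → ℤ) (h : ∀ j ∈ l, g j = 2 ∨ g j = -2) :
    (l.map g).sum = 2 * l.length - 4 * (l.filter (fun j => decide (g j ≠ 2))).length := by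
  induction l with
  | nil => simp
  | cons a l ih =>
    have ih' := ih (fun j hj => h j (List.mem_cons_of_mem _ hj))
    rcases h a (List.mem_cons_self ..) with h1 | h1
    · rw [List.filter_cons_of_neg (by simp [h1])]
      simp only [List.map_cons, List.sum_cons, ih', List.length_cons, h1]
      push_cast
      ring
    · rw [List.filter_cons_of_pos (by simp [h1])]
      simp only [List.map_cons, List.sum_cons, ih', List.length_cons, h1]
      push_cast
      ring

lemma posL_length : ∀ m ∈ octadL, (posL m).length = 8 := by decide +kernel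

lemma mem_listB {x : GolayPt → ℤ} (hx : LS 0 x) (hn : sqNorm x = 32) (hc : (support₂ (bitv x)).card = 8) :
    ∃ n ∈ listB, Val n ∧ dec n = x := by
  obtain ⟨h1, h2, h3⟩ := hx
  have hsh := shape_octad h1 hn hc
  obtain ⟨c, hc4, hw⟩ := (mem_golayCode_iff _).mp h3
  set m := comb c with hm
  have hsup : support₂ (bitv x) = finOf m := by rw [hw, support_wordOf]
  have hmL : m ∈ octadL := by
    rw [octadL_mem_iff]
    refine ⟨mem_codeL.2 ⟨c, hc4, rfl⟩, ?_⟩
    rw [← card_finOf (comb_lt hc4), ← hsup, hc]
  have hmem : ∀ q, q ∈ support₂ (bitv x) ↔ m.testBit (idx q) = true := by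
    intro q
    rw [hsup, mem_finOf]
  have hposi : ∀ i, i ∈ posL m ↔ i < 24 ∧ m.testBit i = true := by
    intro i
    simp [posL]
  have hB : ∀ i < 24, ((if m.testBit i then 18 else 16 : ℕ)) ≤ 32 := by
    intro i _
    split_ifs <;> norm_num
  have hV := val_of_F hB
  have hg : ∀ i < 24, ((enc x i : ℕ) : ℤ) = x (pt i) + 16 := by
    intro i hi
    rw [enc, Int.toNat_of_nonneg]
    have h5 := hsh (pt i)
    by_cases h6 : pt i ∈ support₂ (bitv x)
    · rcases h5.1 h6 with h7 | h7 <;> omega
    · have := h5.2 h6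
      omega
  have hnd : (posL m).Nodup := (List.nodup_range).filter _
  have key := mem_bList (g := enc x) hnd (fun p hp => ((hposi p).1 hp).1) (n := baseB m) (par := 0) hV.1 (by norm_num)
    (fun i hi hn => by
      have hbit : m.testBit i = false := by
        by_contra h5
        exact hn ((hposi i).2 ⟨hi, by simpa using h5⟩)
      have h6 : pt i ∉ support₂ (bitv x) := by
        rw [hmem, idx_pt hi, hbit]
        simp
      have h7 := (hsh (pt i)).2 h6
      have h8 := hg i hi
      rw [h7] at h8
      rw [baseB, hV.2 i hi, if_neg (by simp [hbit])]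
      omega)
    (fun i hi => by
      obtain ⟨hi1, hi2⟩ := (hposi i).1 hi
      have h6 : pt i ∈ support₂ (bitv x) := by rw [hmem, idx_pt hi1, hi2]
      have h8 := hg i hi1
      rw [baseB, hV.2 i hi1, if_pos hi2]
      rcases (hsh (pt i)).1 h6 with h7 | h7
      · left
        rw [h7] at h8
        omega
      · right
        rw [h7] at h8
        omega)
    (by
      -- parity from the sum
      have hfilter : (posL m).filter (fun i => decide (enc x i ≠ fld (baseB m) i)) =
          (posL m).filter (fun i => decide (x (pt i) ≠ 2)) := by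
        apply List.filter_congr
        intro i hi
        obtain ⟨hi1, hi2⟩ := (hposi i).1 hi
        have h8 := hg i hi1
        rw [baseB, hV.2 i hi1, if_pos hi2]
        apply decide_eq_decide.2
        rw [Ne, Ne, not_iff_not]
        constructor
        · intro h
          rw [h] at h8
          push_cast at h8
          omega
        · intro h
          rw [h] at h8
          push_cast at h8
          omega
      rw [hfilter]
      have hs1 : ∑ q, x q = ∑ j ∈ Finset.range 24, x (pt j) := by
        rw [← sum_idx (fun j => x (pt j))]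
        simp only [pt_idx]
      rw [sum_range_list] at hs1
      have hs2 := list_sum_filter (List.range 24) (fun i => m.testBit i) (fun j => x (pt j)) (fun j hj hb => by
        have h6 : pt j ∉ support₂ (bitv x) := by
          rw [hmem, idx_pt (List.mem_range.1 hj), hb]
          simp
        exact (hsh (pt j)).2 h6)
      have hs3 := list_sign_sum (posL m) (fun j => x (pt j)) (fun j hj => by
        obtain ⟨hi1, hi2⟩ := (hposi j).1 hj
        have h6 : pt j ∈ support₂ (bitv x) := by rw [hmem, idx_pt hi1, hi2]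
        exact (hsh (pt j)).1 h6)
      rw [posL_length m hmL] at hs3
      change _ = ((posL m).map _).sum at hs2
      rw [hs2, hs3] at hs1
      rw [hs1] at h2
      push_cast at h2
      omega)
  obtain ⟨n, hn1, hn2, hn3⟩ := key
  refine ⟨n, List.mem_flatMap.2 ⟨m, hmL, hn1⟩, hn2, ?_⟩
  apply dec_of_fields
  intro q
  rw [hn3 _ (idx_lt q), hg _ (idx_lt q), pt_idx]
  ring

lemma val_oneN : Val oneN := (val_of_F (fun _ _ => by norm_num)).1

lemma dec_oneN (q : GolayPt) : dec oneN q = 1 := by
  show ((fld oneN (idx q) : ℕ) : ℤ) - 16 = 1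
  rw [oneN, (val_of_F (fun _ _ => by norm_num)).2 _ (idx_lt q)]
  norm_num

lemma mem_listC {x : GolayPt → ℤ} (hx : LS 1 x) (hn : sqNorm x = 32) :
    ∃ n ∈ listC, Val n ∧ dec n = x := by
  obtain ⟨h1, h2, h3⟩ := hx
  obtain ⟨p, hp, hi⟩ := shape_odd h1 hn
  obtain ⟨d, hd4, hw⟩ := (mem_golayCode_iff _).mp h3
  set c := comb d with hc
  have hbit : ∀ q, ((x q / 2 : ℤ) : ZMod 2) = if c.testBit (idx q) then 1 else 0 := fun q => congrFun hw q
  have hcL : c ∈ codeL := mem_codeL.2 ⟨d, hd4, rfl⟩
  have hbase := flipS_spec (c := c) val_oneN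
  have hdb : ∀ q, dec (baseC c) q = if c.testBit (idx q) then -1 else 1 := by
    intro q
    have := congrFun hbase.2 q
    rw [dec_oneN] at this
    exact this
  have hplt := idx_lt p
  have hfp : ((fld (baseC c) (idx p) : ℕ) : ℤ) - 16 = if c.testBit (idx p) then -1 else 1 := hdb p
  have hcase : ∀ q, q ≠ p → x q = if c.testBit (idx q) then -1 else 1 := by
    intro q hq
    have h5 := hbit q
    rcases hi q hq with h6 | h6 <;> rw [h6] at h5 ⊢
    · have h7 : c.testBit (idx q) = false := by
        by_contra h8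
        rw [if_pos (by simpa using h8)] at h5
        revert h5
        decide
      simp [h7]
    · have h7 : c.testBit (idx q) = true := by
        by_contra h8
        rw [if_neg h8] at h5
        revert h5
        decide
      simp [h7]
  refine ⟨cElt (baseC c) c (idx p), ?_, ?_⟩
  · rw [listC, List.mem_flatMap]
    exact ⟨c, hcL, List.mem_map.2 ⟨idx p, List.mem_range.2 hplt, rfl⟩⟩
  · have h5 := hbit p
    rcases hp with h6 | h6
    · -- the value three: the bit is set
      have h7 : c.testBit (idx p) = true := by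
        by_contra h8
        rw [h6, if_neg h8] at h5
        revert h5
        decide
      rw [h7, if_pos rfl] at hfp
      have e : cElt (baseC c) c (idx p) = baseC c + shW 4 (idx p) := by
        unfold cElt
        rw [bitAt_eq, h7]
        rfl
      rw [e]
      have hA := addV (n := baseC c) (c := 4) hbase.1 hplt (by omega)
      refine ⟨hA.1, ?_⟩
      funext q
      rw [hA.2 q, hdb q]
      by_cases hq : q = p
      · subst hq
        simp [h7, h6]
      · have h9 : idx q ≠ idx p := fun e => hq (idx_injective e)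
        rw [if_neg h9, hcase q hq]
    · have h7 : c.testBit (idx p) = false := by
        by_contra h8
        rw [h6, if_pos (by simpa using h8)] at h5
        revert h5
        decide
      rw [h7, if_neg (by simp)] at hfp
      have e : cElt (baseC c) c (idx p) = baseC c - shW 4 (idx p) := by
        unfold cElt
        rw [bitAt_eq, h7]
        rfl
      rw [e]
      have hA := subV (n := baseC c) (c := 4) hbase.1 hplt (by omega)
      refine ⟨hA.1, ?_⟩
      funext q
      rw [hA.2 q, hdb q]
      by_cases hq : q = p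
      · subst hq
        simp [h7, h6]
      · have h9 : idx q ≠ idx p := fun e => hq (idx_injective e)
        rw [if_neg h9, hcase q hq]

/-- Every minimal vector is in the enumeration. -/
theorem mem_minL {x : GolayPt → ℤ} (hx : x ∈ leechLattice) (hn : sqNorm x = 32) :
    ∃ n ∈ minL, Val n ∧ dec n = x := by
  rw [mem_leechLattice_iff] at hx
  rcases hx with hx | hx
  · rcases card_support_code hx.2.2 with h | h | h | h | h
    · have h4 : ∀ i, x i % 4 = 0 := by
        intro i
        have h5 : bitv x i = 0 := by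
          by_contra h6
          have : i ∈ support₂ (bitv x) := by simp [support₂, h6]
          rw [Finset.card_eq_zero] at h
          rw [h] at this
          simp at this
        exact (bit_half (hx.1 i)).1 h5
      obtain ⟨n, h1, h2⟩ := mem_listA h4 hn
      exact ⟨n, by simp [minL, h1], h2⟩
    · obtain ⟨n, h1, h2⟩ := mem_listB hx hn h
      exact ⟨n, by simp [minL, h1], h2⟩
    all_goals
      exfalso
      have h0 : ∀ i, i ∈ support₂ (bitv x) → 4 ≤ x i ^ 2 := by
        intro i hi
        have h5 : x i % 4 ≠ 0 := by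
          have h6 : bitv x i ≠ 0 := by simpa [support₂] using hi
          exact fun h7 => h6 ((bit_half (hx.1 i)).2 h7)
        have h7 := hx.1 i
        have h3 : 2 ≤ |x i| := by
          rw [abs_eq_max_neg, max_def]
          split_ifs <;> omega
        have := sq_abs (x i)
        nlinarith
      have h6 : ∑ i ∈ support₂ (bitv x), (4 : ℤ) ≤ ∑ i ∈ support₂ (bitv x), x i ^ 2 := Finset.sum_le_sum h0
      have h7 : ∑ i ∈ support₂ (bitv x), x i ^ 2 ≤ ∑ i, x i ^ 2 :=
        Finset.sum_le_sum_of_subset_of_nonneg (Finset.subset_univ _) (fun i _ _ => sq_nonneg _)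
      have h8 : ∑ i, x i ^ 2 = 32 := hn
      rw [Finset.sum_const, h] at h6
      norm_num at h6
      omega
  · obtain ⟨n, h1, h2⟩ := mem_listC hx hn
    exact ⟨n, by simp [minL, h1], h2⟩

/-! ### Folding over the enumeration in the kernel -/

/-- The step function on lists. -/
def stepFn (f : ℕ → ℕ → ℕ) (a n : ℕ) : ℕ := f (saltN n) a

/-- Folding over a list. -/
noncomputable def foldN (f : ℕ → ℕ → ℕ) (l : List ℕ) : ℕ → ℕ :=
  List.rec (motive := fun _ => ℕ → ℕ) (fun acc => acc)
    (fun n _ ih acc => forceN (forceN (saltN n) (fun m => f m acc)) ih) l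

lemma foldN_eq (f : ℕ → ℕ → ℕ) (l : List ℕ) (acc : ℕ) : foldN f l acc = l.foldl (stepFn f) acc := by
  induction l generalizing acc with
  | nil => rfl
  | cons n l ih =>
    have e : foldN f (n :: l) acc = forceN (forceN (saltN n) (fun m => f m acc)) (foldN f l) := rfl
    rw [e, forceN_eq, forceN_eq, ih]
    rfl

/-- Folding over sign patterns. -/
noncomputable def foldBits (f : ℕ → ℕ → ℕ) (ps : List ℕ) : ℕ → ℕ → ℕ → ℕ :=
  List.rec (motive := fun _ => ℕ → ℕ → ℕ → ℕ)
    (fun n par acc => Nat.rec (motive := fun _ => ℕ) (forceN (saltN n) (fun m => f m acc)) (fun _ _ => acc) par)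
    (fun p _ ih n par acc => forceN (ih n par acc) (fun acc' => ih (Nat.sub n (shW 4 p)) (Nat.sub 1 par) acc'))
    ps

lemma foldBits_eq (f : ℕ → ℕ → ℕ) (ps : List ℕ) (n par acc : ℕ) :
    foldBits f ps n par acc = (bList ps n par).foldl (stepFn f) acc := by
  induction ps generalizing n par acc with
  | nil =>
    cases par with
    | zero =>
      show forceN (saltN n) (fun m => f m acc) = _
      rw [forceN_eq]
      rfl
    | succ k => rfl
  | cons p ps ih =>
    have e : foldBits f (p :: ps) n par acc =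
        forceN (foldBits f ps n par acc) (fun acc' => foldBits f ps (Nat.sub n (shW 4 p)) (Nat.sub 1 par) acc') := rfl
    rw [e, forceN_eq, ih, ih]
    show _ = (bList ps n par ++ bList ps (n - shW 4 p) (1 - par)).foldl (stepFn f) acc
    rw [List.foldl_append]
    rfl

/-- Folding over the words of weight eight. -/
noncomputable def foldB (f : ℕ → ℕ → ℕ) (l : List ℕ) : ℕ → ℕ :=
  List.rec (motive := fun _ => ℕ → ℕ) (fun acc => acc)
    (fun m _ ih acc => forceN (foldBits f (posL m) (baseB m) 0 acc) ih) l

lemma foldB_eq (f : ℕ → ℕ → ℕ) (l : List ℕ) (acc : ℕ) :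
    foldB f l acc = (l.flatMap fun m => bList (posL m) (baseB m) 0).foldl (stepFn f) acc := by
  induction l generalizing acc with
  | nil => rfl
  | cons m l ih =>
    have e : foldB f (m :: l) acc = forceN (foldBits f (posL m) (baseB m) 0 acc) (foldB f l) := rfl
    rw [e, forceN_eq, ih, foldBits_eq, List.flatMap_cons, List.foldl_append]

/-- Folding over the places. -/
noncomputable def foldP (f : ℕ → ℕ → ℕ) (c mc : ℕ) (l : List ℕ) : ℕ → ℕ :=
  List.rec (motive := fun _ => ℕ → ℕ) (fun acc => acc)
    (fun p _ ih acc => forceN (forceN (saltN (cElt (un mc) c p)) (fun m => f m acc)) ih) l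

lemma foldP_eq (f : ℕ → ℕ → ℕ) (c mc : ℕ) (l : List ℕ) (acc : ℕ) :
    foldP f c mc l acc = (l.map (cElt (un mc) c)).foldl (stepFn f) acc := by
  induction l generalizing acc with
  | nil => rfl
  | cons p l ih =>
    have e : foldP f c mc (p :: l) acc =
        forceN (forceN (saltN (cElt (un mc) c p)) (fun m => f m acc)) (foldP f c mc l) := rfl
    rw [e, forceN_eq, forceN_eq, ih]
    rfl

/-- Folding over the words. -/
noncomputable def foldC (f : ℕ → ℕ → ℕ) (l : List ℕ) : ℕ → ℕ :=
  List.rec (motive := fun _ => ℕ → ℕ) (fun acc => acc)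
    (fun c _ ih acc => forceN c (fun c' => forceN (saltN (baseC c')) (fun mc =>
      forceN (foldP f c' mc (List.range 24) acc) ih))) l

lemma foldC_eq (f : ℕ → ℕ → ℕ) (l : List ℕ) (acc : ℕ) :
    foldC f l acc = (l.flatMap fun c => (List.range 24).map (cElt (baseC c) c)).foldl (stepFn f) acc := by
  induction l generalizing acc with
  | nil => rfl
  | cons c l ih =>
    have e : foldC f (c :: l) acc = forceN c (fun c' => forceN (saltN (baseC c')) (fun mc =>
      forceN (foldP f c' mc (List.range 24) acc) (foldC f l))) := rfl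
    rw [e, forceN_eq, forceN_eq, forceN_eq, ih, foldP_eq, un_salt, List.flatMap_cons, List.foldl_append]

/-- Folding over all minimal vectors. -/
noncomputable def foldMin (f : ℕ → ℕ → ℕ) (acc : ℕ) : ℕ :=
  forceN (foldN f listA acc) (fun a => forceN (foldB f octadL a) (foldC f codeL))

theorem foldMin_eq (f : ℕ → ℕ → ℕ) (acc : ℕ) : foldMin f acc = minL.foldl (stepFn f) acc := by
  unfold foldMin
  rw [forceN_eq, forceN_eq, foldN_eq, foldB_eq, foldC_eq, minL, List.foldl_append, List.foldl_append]
  rfl

/-- Counting. -/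
def cntF (p : ℕ → Bool) (m a : ℕ) : ℕ := Bool.rec (motive := fun _ => ℕ) a (Nat.succ a) (p m)

lemma foldl_cnt (p : ℕ → Bool) (l : List ℕ) (acc : ℕ) :
    l.foldl (stepFn (cntF p)) acc = acc + (l.filter fun n => p (saltN n)).length := by
  induction l generalizing acc with
  | nil => rfl
  | cons n l ih =>
    rw [List.foldl_cons, ih]
    cases hp : p (saltN n) with
    | false =>
      rw [List.filter_cons_of_neg (p := fun n => p (saltN n)) (by simp [hp])]
      have : stepFn (cntF p) acc n = acc := by
        show Bool.rec (motive := fun _ => ℕ) acc (Nat.succ acc) (p (saltN n)) = _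
        rw [hp]
      rw [this]
    | true =>
      rw [List.filter_cons_of_pos (p := fun n => p (saltN n)) hp, List.length_cons]
      have : stepFn (cntF p) acc n = acc + 1 := by
        show Bool.rec (motive := fun _ => ℕ) acc (Nat.succ acc) (p (saltN n)) = _
        rw [hp]
      rw [this]
      ring

/-- The number of vectors with a property. -/
noncomputable def cntMin (p : ℕ → Bool) : ℕ := foldMin (cntF p) 0

theorem cntMin_eq (p : ℕ → Bool) : cntMin p = (minL.filter fun n => p (saltN n)).length := by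
  rw [cntMin, foldMin_eq, foldl_cnt, zero_add]

theorem all_of_cntMin {p : ℕ → Bool} (h : cntMin p = 0) (n : ℕ) (hn : n ∈ minL) : p (saltN n) = false := by
  rw [cntMin_eq, List.length_eq_zero_iff, List.filter_eq_nil_iff] at h
  simpa using h n hn

/-- A fast test for valid numbers. -/
def hiMask : ℕ := ofF fun _ => 65504

/-- A fast test for valid numbers. -/
def valF (n : ℕ) : Bool := Nat.blt n (2 ^ 384) && Nat.beq (Nat.land n hiMask) 0

lemma val_of_valF {n : ℕ} (h : valF n = true) : Val n := by
  simp only [valF, Bool.and_eq_true] at h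
  have hl := blt_sound h.1
  have h0 : n &&& hiMask = 0 := Nat.eq_of_beq_eq_true h.2
  refine ⟨by rw [W24]; exact hl, fun i hi => ?_⟩
  have h1 : fld hiMask i = 65504 := by
    have hW : ∀ j < 24, (fun _ : ℕ => 65504) j < W := fun _ _ => by norm_num [W]
    exact fld_pk hW hi
  have h2 := fld_land n hiMask i
  rw [h0, h1] at h2
  have h3 : fld 0 i = 0 := by
    rw [fld_eq]
    simp
  rw [h3] at h2
  have h4 := fld_lt n i
  rw [W_eq] at h4
  have h5 : fld n i < 2 ^ 5 := by
    apply Nat.lt_pow_two_of_testBit
    intro t ht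
    by_cases ht2 : t < 16
    · have h6 : (fld n i &&& 65504).testBit t = false := by rw [← h2]; simp
      rw [Nat.testBit_and] at h6
      have h7 : (65504 : ℕ).testBit t = true := by
        interval_cases t <;> decide
      rw [h7] at h6
      simpa using h6
    · have h8 : (65536 : ℕ) = 2 ^ 16 := by norm_num
      rw [h8] at h4
      exact Nat.testBit_lt_two_pow (lt_of_lt_of_le h4 (Nat.pow_le_pow_right (by norm_num) (by omega)))
  omega

end Cfsg.Agent.Lib.LeechP
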