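/-
The enumeration of the minimal vectors: two checks.
-/
import Cfsg.Agent.Lib.LeechP.Min

set_option autoImplicit false

namespace Cfsg.Agent.Lib.LeechP

open Cfsg Cfsg.Agent.Lib.Golay Cfsg.Agent.Lib.Golay.Leech Cfsg.Agent.Lib.LeechX Cfsg.Agent.Lib.M24

/-- The test of failure of validity. -/
def notValF (m : ℕ) : Bool := !(valF (un m))

theorem cnt_all : cntMin (fun _ => true) = 196560 := by decide +kernel

theorem cnt_val : cntMin notValF = 0 := by decide +kernel

end Cfsg.Agent.Lib.LeechP
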