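/-
The enumeration of the minimal vectors: length, validity, and counting.
-/
import Cfsg.Agent.Lib.LeechP.MinCnt

set_option autoImplicit false

namespace Cfsg.Agent.Lib.LeechP

open Cfsg Cfsg.Agent.Lib.Golay Cfsg.Agent.Lib.Golay.Leech Cfsg.Agent.Lib.LeechX Cfsg.Agent.Lib.M24

lemma length_all (l : List ℕ) : (l.filter fun n => (fun _ => true) (saltN n)).length = l.length := by
  simp

theorem len_minL : minL.length = 196560 := by
  have h := cntMin_eq (fun _ => true)
  rw [length_all, cnt_all] at h
  exact h.symm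

theorem val_minL {n : ℕ} (hn : n ∈ minL) : Val n := by
  have h := all_of_cntMin cnt_val n hn
  have e : notValF (saltN n) = !(valF n) := by
    unfold notValF
    rw [un_salt]
  rw [e] at h
  have h2 : valF n = true := by
    revert h
    cases valF n <;> simp
  exact val_of_valF h2

/-- The image of the enumeration is exactly the set of minimal vectors, without repetition. -/
theorem min_image : (minL.map dec).Nodup ∧ ∀ n ∈ minL, dec n ∈ leechLattice ∧ sqNorm (dec n) = 32 := by
  classical
  set S : Set (GolayPt → ℤ) := {x | x ∈ leechLattice ∧ sqNorm x = 32} with hS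
  have hcard : S.ncard = 196560 := ncard_norm32
  have hsub : S ⊆ ↑(minL.map dec).toFinset := by
    rintro x ⟨h1, h2⟩
    obtain ⟨n, hn, -, e⟩ := mem_minL h1 h2
    simp only [Finset.mem_coe, List.mem_toFinset, List.mem_map]
    exact ⟨n, hn, e⟩
  have h1 : (minL.map dec).toFinset.card ≤ 196560 := by
    have := List.toFinset_card_le (minL.map dec)
    rw [List.length_map, len_minL] at this
    exact this
  have h2 : 196560 ≤ (minL.map dec).toFinset.card := by
    have := Set.ncard_le_ncard hsub (Finset.finite_toSet _)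
    rwa [hcard, Set.ncard_coe_finset] at this
  have h3 : (minL.map dec).toFinset.card = (minL.map dec).length := by
    rw [List.length_map, len_minL]
    omega
  have hnd : (minL.map dec).Nodup := by
    rw [List.card_toFinset] at h3
    exact List.dedup_eq_self.1 ((List.dedup_sublist _).eq_of_length h3)
  refine ⟨hnd, fun n hn => ?_⟩
  have h4 : S = ↑(minL.map dec).toFinset :=
    Set.eq_of_subset_of_ncard_le hsub (by rw [hcard, Set.ncard_coe_finset]; exact h1) (Finset.finite_toSet _)
  have h5 : dec n ∈ (↑(minL.map dec).toFinset : Set (GolayPt → ℤ)) := by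
    simp only [Finset.mem_coe, List.mem_toFinset, List.mem_map]
    exact ⟨n, hn, rfl⟩
  rw [← h4] at h5
  exact h5

/-- Counting minimal vectors with a property. -/
theorem ncard_min {Q : (GolayPt → ℤ) → Prop} {p : ℕ → Bool} (h : ∀ n ∈ minL, p (saltN n) = true ↔ Q (dec n)) :
    {x : GolayPt → ℤ | x ∈ leechLattice ∧ sqNorm x = 32 ∧ Q x}.ncard = cntMin p := by
  classical
  rw [cntMin_eq]
  have hnd := min_image.1
  have hf : (minL.filter fun n => p (saltN n)).Nodup := (List.Nodup.of_map _ hnd).filter _
  have hinj : Set.InjOn dec (↑(minL.filter fun n => p (saltN n)).toFinset : Set ℕ) := by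
    intro a ha b hb e
    simp only [Finset.mem_coe, List.mem_toFinset, List.mem_filter] at ha hb
    exact List.inj_on_of_nodup_map hnd ha.1 hb.1 e
  have hset : {x : GolayPt → ℤ | x ∈ leechLattice ∧ sqNorm x = 32 ∧ Q x} =
      dec '' (↑(minL.filter fun n => p (saltN n)).toFinset : Set ℕ) := by
    ext x
    simp only [Set.mem_ofPred_eq, Set.mem_image, Finset.mem_coe, List.mem_toFinset, List.mem_filter]
    constructor
    · rintro ⟨h1, h2, h3⟩
      obtain ⟨n, hn, -, rfl⟩ := mem_minL h1 h2
      exact ⟨n, ⟨hn, (h n hn).2 h3⟩, rfl⟩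
    · rintro ⟨n, ⟨hn, hp⟩, rfl⟩
      have := min_image.2 n hn
      exact ⟨this.1, this.2, (h n hn).1 hp⟩
  rw [hset, hinj.ncard_image, Set.ncard_coe_finset, List.toFinset_card_of_nodup hf]

/-- A check over all minimal vectors. -/
theorem forall_min {Q : (GolayPt → ℤ) → Prop} {p : ℕ → Bool}
    (h : ∀ n, Val n → p (saltN n) = false → Q (dec n)) (hc : cntMin p = 0) {x : GolayPt → ℤ}
    (hx : x ∈ leechLattice) (hn : sqNorm x = 32) : Q x := by
  obtain ⟨n, hm, hv, rfl⟩ := mem_minL hx hn
  exact h n hv (all_of_cntMin hc n hm)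

/-- A scan in two parts. -/
theorem cntMin_zero_of_parts {p : ℕ → Bool} (h1 : foldB (cntF p) octadL (foldN (cntF p) listA 0) = 0)
    (h2 : foldC (cntF p) codeL 0 = 0) : cntMin p = 0 := by
  unfold cntMin foldMin
  rw [forceN_eq, forceN_eq, h1, h2]

/-- The failure of a search at a number. -/
noncomputable def scanF (t : ℕ → Bool) (T : BT) (nf : List (ℕ × ℕ)) (m : ℕ) : Bool := t m && !(inT T (nfL nf m))

/-- Reachability of a vector by a search, from a scan. -/
theorem orbit_of_scan {L : List ℕ} {gens : List Mv} {nf : List (ℕ × ℕ)} (hS : sysChk L gens nf = true)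
    {x0 : ↥leechLattice} (hx0 : sqNorm x0.1 ≤ 256) {fuel n0 : ℕ} (hn0 : Val n0) (hd0 : dec n0 = x0.1)
    {T : BT} (hT : T = orbitT (actMv nf) gens fuel (saltN n0))
    {t : ℕ → Bool} (hc : cntMin (scanF t T nf) = 0)
    {x : GolayPt → ℤ} (hx : x ∈ leechLattice) (hn : sqNorm x = 32)
    (hQ : ∀ n, dec n = x → Val n → t (saltN n) = true) : InOrb (Fx L) x0 x := by
  obtain ⟨n, hm, hv, rfl⟩ := mem_minL hx hn
  have h1 := all_of_cntMin hc n hm
  unfold scanF at h1
  rw [hQ n rfl hv, Bool.true_and] at h1
  have h2 : inT T (nfL nf (saltN n)) = true := by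
    revert h1
    cases inT T (nfL nf (saltN n)) <;> simp
  rw [hT] at h2
  exact reach_of_sys hS hx0 hn0 hd0 hv h2

/-- The test of an inner product at a salted number. -/
def tD (ra fa dp dn m : ℕ) : Bool := dotIs ra fa dp dn (un m)

theorem tD_iff {a ra fa dp dn n : ℕ} (ha : Val a) (hra : revP a = ra) (hfa : coefP onesP a = fa) (hn : Val n) :
    tD ra fa dp dn (saltN n) = true ↔ dotInt (dec a) (dec n) = (dp : ℤ) - dn := by
  subst hra hfa
  unfold tD
  rw [un_salt]
  exact dotIs_iff ha hn

end Cfsg.Agent.Lib.LeechP
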