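/-
The census by shape of the lattice vectors of sum of squares 48, by generating functions with restricted coordinates.
-/
import Cfsg.Agent.Lib.Golay.LeechCount

set_option autoImplicit false
set_option linter.unusedSectionVars false

namespace Cfsg.Agent.Lib.LeechP

open Cfsg Cfsg.Agent.Lib.Golay Cfsg.Agent.Lib.Golay.Leech

/-- The restricted coordinate values of a class. -/
def classV (V : ℤ → Bool) (r : ℕ) (β : Bool) : Finset ℤ := (classA r β).filter (fun a => V a = true)

/-- The generating function of a restricted class. -/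
def pvV (V : ℤ → Bool) (r : ℕ) (β : Bool) : ℕ := ∑ a ∈ classV V r β, BB ^ encA a

/-- The number of vectors of a residue class with restricted coordinates. -/
def cntV (V : ℤ → Bool) (r w N : ℕ) : ℕ :=
  (fun X => ∑ s ∈ (Finset.range DD).filter (fun s => s % 8 = (4 * r) % 8), (X / BB ^ (DD * N + s)) % BB)
    (pvV V r true ^ w * pvV V r false ^ (24 - w))

variable {V : ℤ → Bool} {r : ℕ} (β : GolayPt → Bool)

/-- The functions with coordinates in the prescribed classes. -/
def piV (V : ℤ → Bool) (r : ℕ) (β : GolayPt → Bool) : Finset (GolayPt → ℤ) :=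
  Fintype.piFinset fun i => classV V r (β i)

/-- The coefficient. -/
def CV (V : ℤ → Bool) (r : ℕ) (β : GolayPt → Bool) (e : ℕ) : ℕ := ((piV V r β).filter (fun f => EE f = e)).card

theorem classV_sub (a : ℤ) (b : Bool) (h : a ∈ classV V r b) : a ∈ classA r b := (Finset.mem_filter.mp h).1

theorem prodV_eq_sum_digits (hr : r < 2) :
    ∏ i, pvV V r (β i) = ∑ e ∈ Finset.range 259753, CV V r β e * BB ^ e := by
  have h1 : ∏ i, pvV V r (β i) = ∑ f ∈ piV V r β, BB ^ EE f := by
    simp only [pvV]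
    rw [Finset.prod_univ_sum]
    apply Finset.sum_congr rfl
    intro f _
    rw [Finset.prod_pow_eq_pow_sum]
    rfl
  rw [h1]
  have hmaps : ∀ f ∈ piV V r β, EE f ∈ Finset.range 259753 := by
    intro f hf
    rw [Finset.mem_range]
    have h2 : EE f ≤ ∑ _i : GolayPt, 10823 := by
      apply Finset.sum_le_sum
      intro i _
      have := (Fintype.mem_piFinset.mp hf) i
      exact classA_enc_le ⟨r, hr⟩ (β i) _ (classV_sub _ _ this)
    have h3 : ∑ _i : GolayPt, 10823 = 259752 := by
      rw [Finset.sum_const, Finset.card_univ, card_golayPt]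
      rfl
    omega
  rw [← Finset.sum_fiberwise_of_maps_to hmaps]
  apply Finset.sum_congr rfl
  intro e _
  have : ∀ f ∈ (piV V r β).filter (fun f => EE f = e), BB ^ EE f = BB ^ e := by
    intro f hf
    rw [(Finset.mem_filter.mp hf).2]
  rw [Finset.sum_congr rfl this, Finset.sum_const, smul_eq_mul]
  rfl

theorem CV_lt (hr : r < 2) (e : ℕ) : CV V r β e < BB := by
  have h1 : CV V r β e ≤ (piV V r β).card := Finset.card_filter_le _ _
  have h2 : (piV V r β).card ≤ 5 ^ 24 := by
    rw [piV, Fintype.card_piFinset]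
    calc ∏ i, (classV V r (β i)).card ≤ ∏ _i : GolayPt, 5 := by
          apply Finset.prod_le_prod'
          intro i _
          exact (Finset.card_filter_le _ _).trans (classA_card_le ⟨r, hr⟩ (β i))
      _ = 5 ^ 24 := by rw [Finset.prod_const, Finset.card_univ, card_golayPt]
  have h3 : 5 ^ 24 < BB := by decide +kernel
  omega

theorem CV_eq (hr : r < 2) (e : ℕ) (he : e < 259753) :
    CV V r β e = (∏ i, pvV V r (β i)) / BB ^ e % BB := by
  rw [prodV_eq_sum_digits β hr, digit_range BB (by decide +kernel) _ (CV_lt β hr) _ _ he]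

/-- The vectors in a class with given norm. -/
def GsetV (V : ℤ → Bool) (r : ℕ) (β : GolayPt → Bool) (N : ℕ) : Finset (GolayPt → ℤ) :=
  (piV V r β).filter (fun f => sqN f = N ∧ resN f % 8 = (4 * r) % 8)

theorem GsetV_card (hr : r < 2) (N : ℕ) (hN : N ≤ 1536) :
    (GsetV V r β N).card = ∑ s ∈ (Finset.range DD).filter (fun s => s % 8 = (4 * r) % 8),
      ((∏ i, pvV V r (β i)) / BB ^ (DD * N + s)) % BB := by
  have hmaps : ∀ f ∈ GsetV V r β N, resN f ∈ (Finset.range DD).filter (fun s => s % 8 = (4 * r) % 8) := by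
    intro f hf
    have h1 := (Finset.mem_filter.mp hf).2.2
    have h2 := resN_lt f
    refine Finset.mem_filter.mpr ⟨Finset.mem_range.mpr ?_, h1⟩
    show resN f < 169
    omega
  rw [Finset.card_eq_sum_card_fiberwise hmaps]
  apply Finset.sum_congr rfl
  intro s hs
  obtain ⟨hs1, hs2⟩ := Finset.mem_filter.mp hs
  have hs3 : s < 169 := Finset.mem_range.mp hs1
  have hfib : (GsetV V r β N).filter (fun f => resN f = s)
      = (piV V r β).filter (fun f => EE f = DD * N + s) := by
    ext f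
    rw [Finset.mem_filter, Finset.mem_filter, GsetV, Finset.mem_filter, EE_eq]
    have hDD : DD = 169 := rfl
    rw [hDD]
    have h2 := resN_lt f
    constructor
    · rintro ⟨⟨h3, h4, h5⟩, h6⟩
      refine ⟨h3, ?_⟩
      rw [h4, h6]
      ring
    · rintro ⟨h3, h4⟩
      have h5 : sqN f = N := by omega
      have h6 : resN f = s := by omega
      refine ⟨⟨h3, h5, ?_⟩, h6⟩
      rw [h6]
      exact hs2
  have hlt : DD * N + s < 259753 := by
    have hDD : DD = 169 := rfl
    rw [hDD]
    omega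
  have hCC := CV_eq (V := V) β hr (DD * N + s) hlt
  rw [hfib]
  exact hCC

theorem prod_pvV_eq (c : ℕ) (hc : c < 2 ^ 24) :
    ∏ i, pvV V r (c.testBit (idx i)) = pvV V r true ^ pop c * pvV V r false ^ (24 - pop c) := by
  have h1 : ∀ i : GolayPt, pvV V r (c.testBit (idx i))
      = if c.testBit (idx i) = true then pvV V r true else pvV V r false := by
    intro i
    cases c.testBit (idx i) <;> simp
  simp only [h1]
  rw [Finset.prod_ite, Finset.prod_const, Finset.prod_const]
  congr 2
  · have := card_finOf hc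
    rw [← this]
    rfl
  · have h3 := card_finOf hc
    have h4 : (Finset.univ.filter fun i : GolayPt => c.testBit (idx i) = true).card = pop c := h3
    have h5 := Finset.card_filter_add_card_filter_not (s := (Finset.univ : Finset GolayPt))
      (fun i : GolayPt => c.testBit (idx i) = true)
    rw [Finset.card_univ, card_golayPt, h4] at h5
    omega

theorem GsetV_card' (hr : r < 2) (N : ℕ) (hN : N ≤ 1536) (c : ℕ) (hc : c < 2 ^ 24) :
    (GsetV V r (fun i => c.testBit (idx i)) N).card = cntV V r (pop c) N := by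
  rw [GsetV_card _ hr N hN, prod_pvV_eq c hc]
  rfl

theorem mem_GsetV {r : ℕ} {β : GolayPt → Bool} {N : ℕ} {x : GolayPt → ℤ} :
    x ∈ GsetV V r β N ↔ x ∈ Gset r β N ∧ ∀ i, V (x i) = true := by
  simp only [GsetV, Gset, Finset.mem_filter, piV, piA, Fintype.mem_piFinset, classV]
  constructor
  · rintro ⟨h1, h2⟩
    exact ⟨⟨fun i => (h1 i).1, h2⟩, fun i => (h1 i).2⟩
  · rintro ⟨⟨h1, h2⟩, h3⟩
    exact ⟨fun i => ⟨h1 i, h3 i⟩, h2⟩

/-- The number of lattice vectors of a given norm with restricted coordinates. -/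
theorem ncard_normV (V : ℤ → Bool) (N : ℕ) (hN : N ≤ 64) :
    {x : GolayPt → ℤ | x ∈ leechLattice ∧ sqNorm x = N ∧ ∀ i, V (x i) = true}.ncard
      = (codeL.map fun c => cntV V 0 (pop c) N + cntV V 1 (pop c) N).sum := by
  classical
  have hset : {x : GolayPt → ℤ | x ∈ leechLattice ∧ sqNorm x = N ∧ ∀ i, V (x i) = true}
      = ↑((Finset.univ ×ˢ codeL.toFinset).biUnion
        (fun p : Fin 2 × ℕ => GsetV V p.1 (fun i => p.2.testBit (idx i)) N)) := by
    ext x
    simp only [Set.mem_ofPred_eq, Finset.coe_biUnion, Set.mem_iUnion, Finset.mem_coe, exists_prop,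
      Finset.mem_product, Finset.mem_univ, true_and, List.mem_toFinset, Prod.exists, mem_GsetV]
    rw [← and_assoc, mem_lattice_norm hN]
    constructor
    · rintro ⟨⟨r, c, hc, hx⟩, h⟩
      exact ⟨r, c, hc, hx, h⟩
    · rintro ⟨r, c, hc, hx, h⟩
      exact ⟨⟨r, c, hc, hx⟩, h⟩
  rw [hset, Set.ncard_coe_finset, Finset.card_biUnion]
  · rw [Finset.sum_product, Fin.sum_univ_two]
    have hnd : codeL.Nodup := codeL_nodup
    have e : ∀ r : Fin 2, ∑ c ∈ codeL.toFinset, (GsetV V r (fun i => c.testBit (idx i)) N).card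
        = ∑ c ∈ codeL.toFinset, cntV V r (pop c) N := by
      intro r
      apply Finset.sum_congr rfl
      intro c hc
      exact GsetV_card' r.2 N (by omega) c (codeL_lt (List.mem_toFinset.mp hc))
    simp only []
    rw [e 0, e 1, ← Finset.sum_add_distrib, List.sum_toFinset _ hnd]
    rfl
  · rintro ⟨r, c⟩ hp ⟨r', c'⟩ hp' hne
    rw [Function.onFun, Finset.disjoint_left]
    intro x hx hx'
    have hc := List.mem_toFinset.mp (Finset.mem_product.mp hp).2
    have hc' := List.mem_toFinset.mp (Finset.mem_product.mp hp').2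
    obtain ⟨h1, h2⟩ := Gset_disjoint hc hc' N (mem_GsetV.1 hx).1 (mem_GsetV.1 hx').1
    exact hne (Prod.ext h1 h2)

theorem table_sumV (N : ℕ) (T : ℕ → ℕ) (hT : ∀ w ∈ [0, 8, 12, 16, 24], cntV V 0 w N + cntV V 1 w N = T w) :
    (codeL.map fun c => cntV V 0 (pop c) N + cntV V 1 (pop c) N).sum = (codeL.map fun c => T (pop c)).sum := by
  have h : ∀ c ∈ codeL, cntV V 0 (pop c) N + cntV V 1 (pop c) N = T (pop c) := by
    intro c hc
    apply hT
    rcases pop_of_mem_codeL hc with h | h | h | h | h <;> rw [h] <;> simp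
  rw [List.map_congr_left h]

/-- The values of the four restrictions. -/
def vA (a : ℤ) : Bool := a == 0 || a == 2 || a == -2
def vB3 (a : ℤ) : Bool := a == 1 || a == -1 || a == 3 || a == -3
def vC (a : ℤ) : Bool := a == 0 || a == 2 || a == -2 || a == 4 || a == -4
def vD (a : ℤ) : Bool := a == 1 || a == -1 || a == 5 || a == -5

def tA48 : ℕ → ℕ
  | 12 => 2048
  | _ => 0
def tC48 : ℕ → ℕ
  | 8 => 4096
  | 12 => 2048
  | _ => 0

theorem tA48_eq : ∀ w ∈ [0, 8, 12, 16, 24], cntV vA 0 w 48 + cntV vA 1 w 48 = tA48 w := by decide +kernel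
theorem tB48_eq : ∀ w ∈ [0, 8, 12, 16, 24], cntV vB3 0 w 48 + cntV vB3 1 w 48 = (fun _ => 2024) w := by decide +kernel
theorem tC48_eq : ∀ w ∈ [0, 8, 12, 16, 24], cntV vC 0 w 48 + cntV vC 1 w 48 = tC48 w := by decide +kernel
theorem tD48_eq : ∀ w ∈ [0, 8, 12, 16, 24], cntV vD 0 w 48 + cntV vD 1 w 48 = (fun _ => 24) w := by decide +kernel

theorem ncard_vA : {x : GolayPt → ℤ | x ∈ leechLattice ∧ sqNorm x = 48 ∧ ∀ i, vA (x i) = true}.ncard = 5275648 := by
  have h := ncard_normV vA 48 (by norm_num)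
  rw [Nat.cast_ofNat] at h
  rw [h, table_sumV _ _ tA48_eq]
  decide +kernel

theorem ncard_vB : {x : GolayPt → ℤ | x ∈ leechLattice ∧ sqNorm x = 48 ∧ ∀ i, vB3 (x i) = true}.ncard = 8290304 := by
  have h := ncard_normV vB3 48 (by norm_num)
  rw [Nat.cast_ofNat] at h
  rw [h, table_sumV _ _ tB48_eq]
  decide +kernel

theorem ncard_vC : {x : GolayPt → ℤ | x ∈ leechLattice ∧ sqNorm x = 48 ∧ ∀ i, vC (x i) = true}.ncard = 8384512 := by
  have h := ncard_normV vC 48 (by norm_num)
  rw [Nat.cast_ofNat] at h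
  rw [h, table_sumV _ _ tC48_eq]
  decide +kernel

theorem ncard_vD : {x : GolayPt → ℤ | x ∈ leechLattice ∧ sqNorm x = 48 ∧ ∀ i, vD (x i) = true}.ncard = 98304 := by
  have h := ncard_normV vD 48 (by norm_num)
  rw [Nat.cast_ofNat] at h
  rw [h, table_sumV _ _ tD48_eq]
  decide +kernel

/-- Parity of lattice vectors. -/
theorem parity {x : GolayPt → ℤ} (hx : x ∈ leechLattice) : (∀ i, x i % 2 = 0) ∨ (∀ i, x i % 2 = 1) := by
  rw [mem_leechLattice_iff] at hx
  rcases hx with h | h
  · exact Or.inl h.1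
  · exact Or.inr h.1

theorem two_le_sum {f : GolayPt → ℤ} (hf : ∀ i, 0 ≤ f i) {i j : GolayPt} (hij : i ≠ j) : f i + f j ≤ ∑ k, f k := by
  classical
  have h := Finset.sum_le_sum_of_subset_of_nonneg (s := {i, j}) (t := Finset.univ) (f := f)
    (Finset.subset_univ _) (fun k _ _ => hf k)
  rwa [Finset.sum_pair hij] at h

theorem sq_le_norm (x : GolayPt → ℤ) (i : GolayPt) : x i ^ 2 ≤ sqNorm x :=
  Finset.single_le_sum (f := fun i => x i ^ 2) (fun i _ => by positivity) (Finset.mem_univ i)

theorem add_sq_le_norm (x : GolayPt → ℤ) {i j : GolayPt} (hij : i ≠ j) : x i ^ 2 + x j ^ 2 ≤ sqNorm x :=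
  two_le_sum (f := fun i => x i ^ 2) (fun i => by positivity) hij

theorem norm_odd_sub {x : GolayPt → ℤ} (h : ∀ i, x i % 2 = 1) : ∑ k, (x k ^ 2 - 1) = sqNorm x - 24 := by
  rw [Finset.sum_sub_distrib, Finset.sum_const, Finset.card_univ, card_golayPt]
  simp [sqNorm]

theorem odd_sq_ge {a : ℤ} (h : a % 2 = 1) : 0 ≤ a ^ 2 - 1 := by
  have : a ≠ 0 := by
    rintro rfl
    simp at h
  have h3 : a ^ 2 ≠ 0 := pow_ne_zero 2 this
  have h4 := sq_nonneg a
  omega

theorem abs_cases {a : ℤ} {n : ℤ} (hn : 0 ≤ n) (h : |a| = n) : a = n ∨ a = -n := by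
  rcases abs_eq hn |>.1 h with h | h
  · exact Or.inl h
  · exact Or.inr h

theorem vals_of_sq {a : ℤ} {b : ℤ} (hb : 0 ≤ b) (h : a ^ 2 ≤ b ^ 2) : -b ≤ a ∧ a ≤ b := by
  constructor <;> nlinarith

theorem set_D : {x : GolayPt → ℤ | x ∈ leechLattice ∧ sqNorm x = 48 ∧ ∃ i, |x i| = 5}
    = {x : GolayPt → ℤ | x ∈ leechLattice ∧ sqNorm x = 48 ∧ ∀ i, vD (x i) = true} := by
  ext x
  constructor
  · rintro ⟨hx, hn, i, hi⟩
    refine ⟨hx, hn, fun l => ?_⟩
    have hi' := abs_cases (by norm_num) hi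
    have hodd : ∀ k, x k % 2 = 1 := by
      rcases parity hx with h | h
      · exfalso
        have := h i
        omega
      · exact h
    by_cases hl : l = i
    · subst hl
      rcases hi' with h | h <;> rw [h] <;> rfl
    · have h1 := two_le_sum (f := fun k => x k ^ 2 - 1) (fun k => odd_sq_ge (hodd k)) (i := i) (j := l) (Ne.symm hl)
      rw [norm_odd_sub hodd, hn] at h1
      have h2 : x i ^ 2 = 25 := by
        rcases hi' with h | h <;> rw [h] <;> norm_num
      have h3 : x l ^ 2 ≤ 1 ^ 2 := by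
        nlinarith
      have h4 := vals_of_sq (by norm_num) h3
      have h5 := hodd l
      have h6 : x l = 1 ∨ x l = -1 := by omega
      rcases h6 with h | h <;> rw [h] <;> rfl
  · rintro ⟨hx, hn, h⟩
    refine ⟨hx, hn, ?_⟩
    by_contra hc
    push Not at hc
    have h1 : ∀ k, x k ^ 2 = 1 := by
      intro k
      have h2 := h k
      have h3 := hc k
      simp only [vD, Bool.or_eq_true, beq_iff_eq] at h2
      rcases h2 with ((h4 | h4) | h4) | h4
      · rw [h4]
        norm_num
      · rw [h4]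
        norm_num
      · rw [h4] at h3
        exact absurd (by norm_num) h3
      · rw [h4] at h3
        exact absurd (by norm_num) h3
    have : sqNorm x = 24 := by
      rw [sqNorm, Finset.sum_congr rfl (fun k _ => h1 k), Finset.sum_const, Finset.card_univ, card_golayPt]
      norm_num
    omega

theorem set_B : {x : GolayPt → ℤ | x ∈ leechLattice ∧ sqNorm x = 48 ∧ ∃ i j k, i ≠ j ∧ j ≠ k ∧ i ≠ k ∧ |x i| = 3 ∧ |x j| = 3 ∧ |x k| = 3}
    = {x : GolayPt → ℤ | x ∈ leechLattice ∧ sqNorm x = 48 ∧ ∀ i, vB3 (x i) = true} := by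
  classical
  ext x
  constructor
  · rintro ⟨hx, hn, i, j, k, hij, hjk, hik, hi, hj, hk⟩
    refine ⟨hx, hn, fun l => ?_⟩
    have hi' := abs_cases (by norm_num) hi
    have hj' := abs_cases (by norm_num) hj
    have hk' := abs_cases (by norm_num) hk
    have hodd : ∀ m, x m % 2 = 1 := by
      rcases parity hx with h | h
      · exfalso
        have := h i
        omega
      · exact h
    by_cases hl : l = i
    · subst hl
      rcases hi' with h | h <;> rw [h] <;> rfl
    by_cases hl2 : l = j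
    · subst hl2
      rcases hj' with h | h <;> rw [h] <;> rfl
    by_cases hl3 : l = k
    · subst hl3
      rcases hk' with h | h <;> rw [h] <;> rfl
    have h1 := Finset.sum_le_sum_of_subset_of_nonneg (s := {i, j, k, l}) (t := Finset.univ) (f := fun m => x m ^ 2)
      (Finset.subset_univ _) (fun m _ _ => by positivity)
    rw [Finset.sum_insert (by simp [hij, hik, Ne.symm hl]), Finset.sum_insert (by simp [hjk, Ne.symm hl2]),
      Finset.sum_pair (Ne.symm hl3)] at h1
    have h2 : ∑ m, x m ^ 2 = 48 := hn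
    rw [h2] at h1
    have e1 : x i ^ 2 = 9 := by rcases hi' with h | h <;> rw [h] <;> norm_num
    have e2 : x j ^ 2 = 9 := by rcases hj' with h | h <;> rw [h] <;> norm_num
    have e3 : x k ^ 2 = 9 := by rcases hk' with h | h <;> rw [h] <;> norm_num
    have h3 : x l ^ 2 ≤ 21 := by linarith
    have h4 : -4 ≤ x l ∧ x l ≤ 4 := by
      constructor <;> nlinarith
    have h5 := hodd l
    have h6 : x l = 1 ∨ x l = -1 ∨ x l = 3 ∨ x l = -3 := by omega
    rcases h6 with h | h | h | h <;> rw [h] <;> rfl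
  · rintro ⟨hx, hn, h⟩
    refine ⟨hx, hn, ?_⟩
    have h1 : ∀ m, x m ^ 2 = if |x m| = 3 then 9 else 1 := by
      intro m
      have h2 := h m
      simp only [vB3, Bool.or_eq_true, beq_iff_eq] at h2
      rcases h2 with ((h4 | h4) | h4) | h4 <;> rw [h4] <;> norm_num
    have h3 : sqNorm x = 8 * ((Finset.univ.filter fun m => |x m| = 3).card : ℤ) + 24 := by
      rw [sqNorm, Finset.sum_congr rfl (fun m _ => h1 m), Finset.sum_ite, Finset.sum_const, Finset.sum_const]
      have h5 := Finset.card_filter_add_card_filter_not (s := (Finset.univ : Finset GolayPt)) (fun m => |x m| = 3)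
      rw [Finset.card_univ, card_golayPt] at h5
      have h6 : ((Finset.univ.filter fun m => |x m| = 3).card : ℤ) + ((Finset.univ.filter fun m => ¬ |x m| = 3).card : ℤ) = 24 := by
        exact_mod_cast h5
      simp only [nsmul_eq_mul]
      linarith
    have h4 : (Finset.univ.filter fun m => |x m| = 3).card = 3 := by
      have : (8 : ℤ) * ((Finset.univ.filter fun m => |x m| = 3).card : ℤ) = 24 := by linarith
      omega
    obtain ⟨i, j, k, hij, hik, hjk, e⟩ := Finset.card_eq_three.1 h4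
    have mem : ∀ m ∈ ({i, j, k} : Finset GolayPt), |x m| = 3 := by
      intro m hm
      rw [← e] at hm
      exact (Finset.mem_filter.1 hm).2
    exact ⟨i, j, k, hij, hjk, hik, mem i (by simp), mem j (by simp), mem k (by simp)⟩

theorem set_A : {x : GolayPt → ℤ | x ∈ leechLattice ∧ sqNorm x = 48 ∧ ∀ i, x i = 0 ∨ x i = 2 ∨ x i = -2}
    = {x : GolayPt → ℤ | x ∈ leechLattice ∧ sqNorm x = 48 ∧ ∀ i, vA (x i) = true} := by
  ext x
  simp only [Set.mem_ofPred_eq, vA, Bool.or_eq_true, beq_iff_eq, or_assoc]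

theorem set_C : {x : GolayPt → ℤ | x ∈ leechLattice ∧ sqNorm x = 48 ∧ ∃ i, |x i| = 4}
    = {x : GolayPt → ℤ | x ∈ leechLattice ∧ sqNorm x = 48 ∧ ∀ i, vC (x i) = true} \
      {x : GolayPt → ℤ | x ∈ leechLattice ∧ sqNorm x = 48 ∧ ∀ i, vA (x i) = true} := by
  ext x
  constructor
  · rintro ⟨hx, hn, i, hi⟩
    have hi' := abs_cases (by norm_num) hi
    have heven : ∀ m, x m % 2 = 0 := by
      rcases parity hx with h | h
      · exact h
      · exfalso
        have := h i
        omega
    refine ⟨⟨hx, hn, fun l => ?_⟩, ?_⟩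
    · by_cases hl : l = i
      · subst hl
        rcases hi' with h | h <;> rw [h] <;> rfl
      · have h1 := add_sq_le_norm x (i := i) (j := l) (Ne.symm hl)
        rw [hn] at h1
        have e1 : x i ^ 2 = 16 := by rcases hi' with h | h <;> rw [h] <;> norm_num
        have h3 : x l ^ 2 ≤ 6 ^ 2 := by nlinarith
        have h4 := vals_of_sq (by norm_num) h3
        have h5 := heven l
        have h6 : x l = 0 ∨ x l = 2 ∨ x l = -2 ∨ x l = 4 ∨ x l = -4 ∨ x l = 6 ∨ x l = -6 := by omega
        rcases h6 with h | h | h | h | h | h | h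
        · rw [h]; rfl
        · rw [h]; rfl
        · rw [h]; rfl
        · rw [h]; rfl
        · rw [h]; rfl
        · exfalso
          rw [h] at h1
          rw [e1] at h1
          norm_num at h1
        · exfalso
          rw [h] at h1
          rw [e1] at h1
          norm_num at h1
    · rintro ⟨-, -, h⟩
      have h2 := h i
      rcases hi' with h3 | h3 <;> rw [h3] at h2 <;> exact absurd h2 (by decide)
  · rintro ⟨⟨hx, hn, h⟩, h2⟩
    refine ⟨hx, hn, ?_⟩
    by_contra hc
    push Not at hc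
    apply h2
    refine ⟨hx, hn, fun l => ?_⟩
    have h3 := h l
    have h4 := hc l
    simp only [vC, Bool.or_eq_true, beq_iff_eq] at h3
    rcases h3 with (((h5 | h5) | h5) | h5) | h5
    · rw [h5]; rfl
    · rw [h5]; rfl
    · rw [h5]; rfl
    · rw [h5] at h4
      exact absurd (by norm_num) h4
    · rw [h5] at h4
      exact absurd (by norm_num) h4

theorem ncard_setC : {x : GolayPt → ℤ | x ∈ leechLattice ∧ sqNorm x = 48 ∧ ∃ i, |x i| = 4}.ncard = 3108864 := by
  have hsub : {x : GolayPt → ℤ | x ∈ leechLattice ∧ sqNorm x = 48 ∧ ∀ i, vA (x i) = true} ⊆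
      {x : GolayPt → ℤ | x ∈ leechLattice ∧ sqNorm x = 48 ∧ ∀ i, vC (x i) = true} := by
    intro x hx
    obtain ⟨h1, h2, h3⟩ := hx
    refine ⟨h1, h2, fun i => ?_⟩
    have h4 := h3 i
    simp only [vA, Bool.or_eq_true, beq_iff_eq] at h4
    rcases h4 with (h5 | h5) | h5 <;> rw [h5] <;> rfl
  rw [set_C, Set.ncard_sdiff hsub (Set.finite_of_ncard_ne_zero (by rw [ncard_vA]; norm_num)), ncard_vC, ncard_vA]

theorem s1568_main : {x : GolayPt → ℤ | x ∈ leechLattice ∧ sqNorm x = 48 ∧ ∀ i, x i = 0 ∨ x i = 2 ∨ x i = -2}.ncard = 5275648 ∧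
    {x : GolayPt → ℤ | x ∈ leechLattice ∧ sqNorm x = 48 ∧ ∃ i j k, i ≠ j ∧ j ≠ k ∧ i ≠ k ∧ |x i| = 3 ∧ |x j| = 3 ∧ |x k| = 3}.ncard = 8290304 ∧
    {x : GolayPt → ℤ | x ∈ leechLattice ∧ sqNorm x = 48 ∧ ∃ i, |x i| = 4}.ncard = 3108864 ∧
    {x : GolayPt → ℤ | x ∈ leechLattice ∧ sqNorm x = 48 ∧ ∃ i, |x i| = 5}.ncard = 98304 := by
  refine ⟨?_, ?_, ncard_setC, ?_⟩
  · rw [set_A]
    exact ncard_vA
  · rw [set_B]
    exact ncard_vB
  · rw [set_D]
    exact ncard_vD

end Cfsg.Agent.Lib.LeechP
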