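/-
The automorphism group of the rank-24 lattice is transitive on minimal vectors.
-/
import Cfsg.Agent.Lib.LeechP.A0

set_option autoImplicit false

namespace Cfsg.Agent.Lib.LeechP

open Cfsg Cfsg.Agent.Lib.Golay Cfsg.Agent.Lib.Golay.Leech Cfsg.Agent.Lib.LeechX Cfsg.Agent.Lib.M24

theorem a0S_lat : Val a0S ∧ dec a0S ∈ leechLattice := lat_of_latOK (by decide +kernel)

/-- The base vector. -/
def v0L : ↥leechLattice := ⟨dec a0S, a0S_lat.2⟩

theorem v0L_norm : sqNorm v0L.1 = 32 := by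
  show sqNorm (dec a0S) = 32
  decide +kernel

theorem reach_v0 (x : ↥leechLattice) (hx : sqNorm x.1 = 32) : ∃ g : ↥Co0, g • v0L = x := by
  have h := orbit_of_scan (t := fun _ => true) a0_sys (x0 := v0L) (by rw [v0L_norm]; norm_num) a0S_lat.1 rfl rfl
    a0_all x.2 hx (fun _ _ _ => rfl)
  obtain ⟨g, -, hg⟩ := h
  exact ⟨g, Subtype.ext hg⟩

/-- Transitivity on minimal vectors. -/
theorem min_trans (v w : ↥leechLattice) (hv : sqNorm v.1 = 32) (hw : sqNorm w.1 = 32) : ∃ g : ↥Co0, g • v = w := by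
  obtain ⟨a, ha⟩ := reach_v0 v hv
  obtain ⟨b, hb⟩ := reach_v0 w hw
  refine ⟨b * a⁻¹, ?_⟩
  rw [← ha, mul_smul, inv_smul_smul, hb]

end Cfsg.Agent.Lib.LeechP
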